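import Cfsg.Agent.Lib.Geometric.Orth.TensorSquare.Dot
import Cfsg.Agent.Lib.Geometric.TensorMaps
import Cfsg.Agent.Lib.Geometric.Orth.Full

/-!
A quadratic form whose polar form is the tensor square of the dot product of `F^3`: the stabiliser
of the decomposition, its elements in normal form, their determinants and traces.
-/

set_option autoImplicit false
set_option linter.unusedSectionVars false
set_option linter.unusedSimpArgs false

namespace CfsgLib.Geometric.TSquare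

open Matrix Tensor QuadraticMap
open scoped commutatorElement Kronecker

variable {ι : Type} [Fintype ι] [DecidableEq ι] {F : Type*} [Field F]
variable {e : ι ≃ Fin 3 × Fin 3} {P : GL ι F}

/-- The polar form of `Q` is `c` times the tensor square of the dot product. -/
structure Data (Q : QuadraticForm F (ι → F)) (e : ι ≃ Fin 3 × Fin 3) (P : GL ι F) (c : F) :
    Prop where
  two : (2 : F) ≠ 0
  five : 5 ≤ Nat.card F
  c_ne : c ≠ 0
  polar_pt : ∀ x y x' y',
    polar Q (pt e P x y) (pt e P x' y') = c * ((x ⬝ᵥ x') * (y ⬝ᵥ y'))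

/-- The rotations of `F^3`. -/
abbrev SO3 (F : Type*) [Field F] : Subgroup (GL (Fin 3) F) :=
  O3 F ⊓ Cfsg.Geo.specialLinear (Fin 3) F

lemma mem_SO3 {a : GL (Fin 3) F} :
    a ∈ SO3 F ↔ a ∈ O3 F ∧ (a : Matrix (Fin 3) (Fin 3) F).det = 1 := by
  rw [Subgroup.mem_inf, mem_specialLinear_iff]

lemma SO3_of_commutator {a : GL (Fin 3) F} (ha : a ∈ ⁅O3 F, O3 F⁆) : a ∈ SO3 F :=
  mem_SO3.mpr ⟨Subgroup.commutator_le_self _ ha, det_eq_one_of_mem_commutator ha⟩

lemma ht_mem_SO3 (h2 : (2 : F) ≠ 0) {x : Fin 3 → F} (hx : x ⬝ᵥ x ≠ 0) : ht x ∈ SO3 F :=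
  mem_SO3.mpr ⟨ht_mem x, det_ht h2 hx⟩

lemma commutator_conj {a b : GL (Fin 3) F} (ha : a ∈ O3 F) (hb : b ∈ ⁅O3 F, O3 F⁆) :
    a * b * a⁻¹ ∈ ⁅O3 F, O3 F⁆ := by
  rw [show a * b * a⁻¹ = ⁅a, b⁆ * b by rw [commutatorElement_def]; group]
  exact mul_mem (Subgroup.commutator_mem_commutator ha (Subgroup.commutator_le_self _ hb)) hb

lemma kron_mul' (a a' b b' : GL (Fin 3) F) :
    kron e P (a * a') (b * b') = kron e P a b * kron e P a' b' :=
  gl_ext_pt e P fun x y => by simp [ap_mul]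

lemma kron_one' : kron e P (1 : GL (Fin 3) F) (1 : GL (Fin 3) F) = 1 :=
  gl_ext_pt e P fun x y => by simp

lemma kron_pow' (a b : GL (Fin 3) F) (m : ℕ) : kron e P a b ^ m = kron e P (a ^ m) (b ^ m) := by
  induction m with
  | zero => simp only [pow_zero, kron_one']
  | succ m ih => rw [pow_succ, pow_succ, pow_succ, ih, kron_mul']

lemma trace_kron (a b : GL (Fin 3) F) :
    ((kron e P a b : GL ι F) : Matrix ι ι F).trace =
      (a : Matrix (Fin 3) (Fin 3) F).trace * (b : Matrix (Fin 3) (Fin 3) F).trace := by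
  rw [kron, Units.val_mul, Units.val_mul, Matrix.trace_units_conj, ← Matrix.trace_kronecker]
  simp [Cfsg.Geo.glReindex, Matrix.trace, Equiv.sum_comp e
    (fun k => (a : Matrix (Fin 3) (Fin 3) F) k.1 k.1 * (b : Matrix (Fin 3) (Fin 3) F) k.2 k.2)]

variable (e P) in
/-- The exchange of the two factors. -/
def sw : GL ι F :=
  P * Cfsg.Geo.glReindex e.symm
    (ofEquiv (LinearEquiv.funCongrLeft F F (Equiv.prodComm (Fin 3) (Fin 3)))) * P⁻¹

@[simp] lemma ap_sw (x y : Fin 3 → F) : ap (sw e P) (pt e P x y) = pt e P y x := by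
  simp only [sw, pt, coords_apply, ap_mul, ap_inv_ap]
  congr 1
  funext i
  set k : GL (Fin 3 × Fin 3) F :=
    ofEquiv (LinearEquiv.funCongrLeft F F (Equiv.prodComm (Fin 3) (Fin 3))) with hk
  simp only [ap_def, Cfsg.Geo.glReindex, Function.comp_apply, Matrix.mulVec, dotProduct]
  refine (Equiv.sum_comp e fun l => (k : Matrix _ _ F) (e i) l * (x l.1 * y l.2)).trans ?_
  change ap k (fun l => x l.1 * y l.2) (e i) = _
  rw [hk, ap_ofEquiv]
  simp [LinearEquiv.funCongrLeft_apply, LinearMap.funLeft, mul_comm]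

lemma sw_mul_self : sw e P * sw e P = 1 := gl_ext_pt e P fun x y => by simp [ap_mul]

lemma sw_inv : (sw e P)⁻¹ = sw e P := inv_eq_of_mul_eq_one_right sw_mul_self

lemma sw_kron (a b : GL (Fin 3) F) : sw e P * kron e P a b = kron e P b a * sw e P :=
  gl_ext_pt e P fun x y => by simp [ap_mul]

lemma conj_sw_kron (a b : GL (Fin 3) F) :
    sw e P * kron e P a b * sw e P = kron e P b a := by
  rw [sw_kron, mul_assoc, sw_mul_self, mul_one]

lemma trace_kron_sw (a b : GL (Fin 3) F) :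
    ((kron e P a b * sw e P : GL ι F) : Matrix ι ι F).trace =
      ((a : Matrix (Fin 3) (Fin 3) F) * (b : Matrix (Fin 3) (Fin 3) F)).trace := by
  set K : GL (Fin 3 × Fin 3) F :=
    ofEquiv (LinearEquiv.funCongrLeft F F (Equiv.prodComm (Fin 3) (Fin 3))) with hK
  have hcol : ∀ i k : Fin 3 × Fin 3, (K : Matrix (Fin 3 × Fin 3) (Fin 3 × Fin 3) F) k i = if k = i.swap then 1 else 0 := by
    intro i k
    have h : ap K (Pi.single i 1) k = (Pi.single i (1 : F) : Fin 3 × Fin 3 → F) k.swap := by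
      rw [hK, ap_ofEquiv]; rfl
    rw [ap, Matrix.mulVec_single_one] at h
    rw [show (K : Matrix _ _ F) k i = (K : Matrix _ _ F).col i k from rfl, h, Pi.single_apply]
    refine if_congr ⟨fun h => by rw [← h, Prod.swap_swap], fun h => by rw [h, Prod.swap_swap]⟩
      rfl rfl
  rw [kron, sw]
  conv_lhs =>
    rw [show ∀ A B : GL ι F, P * A * P⁻¹ * (P * B * P⁻¹) = P * (A * B) * P⁻¹ from
      fun A B => by group]
  rw [← map_mul, Units.val_mul, Units.val_mul, Matrix.trace_units_conj]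
  rw [← hK]
  refine (Equiv.sum_comp e fun k : Fin 3 × Fin 3 =>
    (((a : Matrix (Fin 3) (Fin 3) F) ⊗ₖ (b : Matrix (Fin 3) (Fin 3) F)) *
      (K : Matrix (Fin 3 × Fin 3) (Fin 3 × Fin 3) F) : Matrix _ _ F) k k).trans ?_
  simp only [Matrix.trace, Matrix.diag_apply]
  simp only [Matrix.mul_apply, hcol, mul_ite, mul_one, mul_zero, Finset.sum_ite_eq',
    Finset.mem_univ, if_true, Matrix.kroneckerMap_apply, Prod.fst_swap, Prod.snd_swap,
    Fintype.sum_prod_type]

variable (e P) in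
/-- The stabiliser of the decomposition: factorwise maps, possibly after exchanging the factors. -/
def TT : Subgroup (GL ι F) where
  carrier := {g | ∃ a b : GL (Fin 3) F, g = kron e P a b ∨ g = kron e P a b * sw e P}
  mul_mem' := by
    rintro g h ⟨a, b, hg⟩ ⟨a', b', hh⟩
    rcases hg with rfl | rfl <;> rcases hh with rfl | rfl
    · exact ⟨_, _, Or.inl (kron_mul' a a' b b').symm⟩
    · exact ⟨_, _, Or.inr (by rw [← mul_assoc, ← kron_mul'])⟩
    · exact ⟨_, _, Or.inr (by rw [mul_assoc, sw_kron, ← mul_assoc, ← kron_mul'])⟩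
    · refine ⟨a * b', b * a', Or.inl ?_⟩
      rw [mul_assoc, ← mul_assoc (sw e P), sw_kron, mul_assoc, sw_mul_self, mul_one, ← kron_mul']
  one_mem' := ⟨1, 1, Or.inl kron_one'.symm⟩
  inv_mem' := by
    rintro g ⟨a, b, rfl | rfl⟩
    · exact ⟨_, _, Or.inl (kron_inv e P a b)⟩
    · exact ⟨b⁻¹, a⁻¹, Or.inr (by rw [_root_.mul_inv_rev, sw_inv, kron_inv, sw_kron])⟩

lemma kron_mem_TT (a b : GL (Fin 3) F) : kron e P a b ∈ TT e P := ⟨a, b, Or.inl rfl⟩

lemma sw_mem_TT : sw e P ∈ TT e P := ⟨1, 1, Or.inr (by rw [kron_one', one_mul])⟩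

/-- Rotations are determined by their tensor product. -/
lemma kron_eq_one (h2 : (2 : F) ≠ 0) {a b : GL (Fin 3) F} (ha : a ∈ SO3 F) (hb : b ∈ SO3 F)
    (h : kron e P a b = 1) : a = 1 ∧ b = 1 := by
  obtain ⟨x0, hx0, -⟩ := exists_ne_perp h2 (0 : Fin 3 → F)
  have h1 : ∀ x y, pt e P (ap a x) (ap b y) = pt e P x y := fun x y => by
    rw [← ap_kron, h, ap_one]
  obtain ⟨i, hi⟩ := Function.ne_iff.mp hx0
  set k := ap a x0 i / x0 i with hk
  have hy : ∀ y, k • ap b y = y := fun y => funext fun j => by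
    have h3 : ap a x0 i * ap b y j = x0 i * y j := congrFun ((coords e P).injective (h1 x0 y)) (i, j)
    simp only [Pi.zero_apply] at hi
    rw [Pi.smul_apply, smul_eq_mul, hk]
    field_simp
    linear_combination h3
  have hk0 : k ≠ 0 := fun h0 => hx0 (by rw [← hy x0, h0, zero_smul])
  have hb' : ∀ y, ap b y = k⁻¹ • y := fun y => by
    conv_rhs => rw [← hy y, smul_smul, inv_mul_cancel₀ hk0, one_smul]
  have hbm : (b : Matrix (Fin 3) (Fin 3) F) = k⁻¹ • 1 := Matrix.ext_of_mulVec_single fun j => by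
    rw [← ap_def, hb', Matrix.smul_mulVec, Matrix.one_mulVec]
  have hd := (mem_SO3.mp hb).2
  rw [hbm, Matrix.det_smul, Matrix.det_one, Fintype.card_fin, mul_one] at hd
  obtain ⟨w, -, hw0, hww⟩ : ∃ w : Fin 3 → F, True ∧ True ∧ w ⬝ᵥ w ≠ 0 :=
    ⟨Pi.single 0 1, trivial, trivial, by simp⟩
  have hsq : k⁻¹ * k⁻¹ = 1 := by
    have h4 := O3_dot (mem_SO3.mp hb).1 w w
    rw [hb', smul_dotProduct, dotProduct_smul, smul_eq_mul, smul_eq_mul, ← mul_assoc] at h4
    exact mul_right_cancel₀ hww (h4.trans (one_mul _).symm)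
  have hk1 : k⁻¹ = 1 := by linear_combination hd - k⁻¹ * hsq
  have hb1 : b = 1 := Units.ext (by rw [hbm, hk1, one_smul, Units.val_one])
  refine ⟨gl_ext fun x => ?_, hb1⟩
  have h5 := h1 x x0
  rw [hb1, ap_one] at h5
  rw [ap_one, pt_inj_left e P hx0 h5]

lemma kron_inj (h2 : (2 : F) ≠ 0) {a b a' b' : GL (Fin 3) F} (ha : a ∈ SO3 F) (hb : b ∈ SO3 F)
    (ha' : a' ∈ SO3 F) (hb' : b' ∈ SO3 F) (h : kron e P a b = kron e P a' b') :
    a = a' ∧ b = b' := by
  have h1 := kron_eq_one (e := e) (P := P) h2 (mul_mem (inv_mem ha') ha)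
    (mul_mem (inv_mem hb') hb) (by rw [kron_mul', h, ← kron_inv, inv_mul_cancel])
  exact ⟨(inv_mul_eq_one.mp h1.1).symm, (inv_mul_eq_one.mp h1.2).symm⟩

namespace Data

variable {Q : QuadraticForm F (ι → F)} {c : F} (hT : Data Q e P c)
include hT

lemma card_nine : Fintype.card ι = 9 := by
  rw [Fintype.card_congr e, Fintype.card_prod, Fintype.card_fin]

lemma five_le : 5 ≤ Fintype.card ι := by rw [hT.card_nine]; norm_num

lemma Q_eq (X : ι → F) : Q X = (2 : F)⁻¹ * polar Q X X := by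
  rw [Orth.polar_self', ← mul_assoc, inv_mul_cancel₀ hT.two, one_mul]

lemma Q_pt (x y : Fin 3 → F) : Q (pt e P x y) = (2 : F)⁻¹ * (c * ((x ⬝ᵥ x) * (y ⬝ᵥ y))) := by
  rw [hT.Q_eq, hT.polar_pt]

lemma Q_pt_left {x : Fin 3 → F} (hx : x ⬝ᵥ x = 0) (y : Fin 3 → F) : Q (pt e P x y) = 0 := by
  rw [hT.Q_pt, hx]; ring

omit hT in
/-- Contraction of the first factor with `z`. -/
def L (hT : Data Q e P c) (z : Fin 3 → F) : (ι → F) →ₗ[F] (Fin 3 → F) :=
  conr e P ((sym hT.two).fl z)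

@[simp] lemma L_pt (z x y : Fin 3 → F) : hT.L z (pt e P x y) = (x ⬝ᵥ z) • y := by simp [L]

lemma polar_right (X : ι → F) (z y : Fin 3 → F) :
    polar Q X (pt e P z y) = c * (hT.L z X ⬝ᵥ y) := by
  have h : (polarBilin Q).flip (pt e P z y) = c • (((sym hT.two).fl y).comp (hT.L z)) :=
    ext_pt e P fun a b => by simp [hT.polar_pt]
  simpa using LinearMap.congr_fun h X

lemma nondeg : CfsgLib.ClassicalForms.Nondeg Q := fun X hX => by
  have h : ∀ z, hT.L z X = 0 := fun z => dotProduct_eq_zero _ fun y => by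
    have := hX (pt e P z y)
    rw [hT.polar_right] at this
    exact (mul_eq_zero.mp this).resolve_left hT.c_ne
  refine (coords e P).symm.injective (funext fun a => ?_)
  obtain ⟨i, j⟩ := a
  have h3 := congrFun (h (Pi.single i 1)) j
  simpa [L, conr_apply] using h3

lemma isometry_of_pt {g : GL ι F}
    (h : ∀ x y x' y', polar Q (ap g (pt e P x y)) (ap g (pt e P x' y')) =
      c * ((x ⬝ᵥ x') * (y ⬝ᵥ y'))) : g ∈ Cfsg.isometryGroup F (⇑Q) := by
  have h' : (polarBilin Q).compl₁₂ (apEquiv g).toLinearMap (apEquiv g).toLinearMap = polarBilin Q :=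
    ext_pt e P fun u z => ext_pt e P fun u' z' => by
      simp only [LinearMap.compl₁₂_apply, LinearEquiv.coe_coe, apEquiv_apply,
        polarBilin_apply_apply, h, hT.polar_pt]
  refine Orth.mem_isometryGroup_iff.mpr fun X => ?_
  rw [hT.Q_eq, hT.Q_eq X]
  congr 1
  exact LinearMap.congr_fun (LinearMap.congr_fun h' X) X

lemma kron_isometry {a b : GL (Fin 3) F} (ha : a ∈ O3 F) (hb : b ∈ O3 F) :
    kron e P a b ∈ Cfsg.isometryGroup F (⇑Q) :=
  hT.isometry_of_pt fun x y x' y' => by simp [hT.polar_pt, O3_dot ha, O3_dot hb]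

lemma sw_isometry : sw e P ∈ Cfsg.isometryGroup F (⇑Q) :=
  hT.isometry_of_pt fun x y x' y' => by simp [hT.polar_pt, mul_comm]

lemma isometry_polar {g : GL ι F} (hg : g ∈ Cfsg.Geo.omegaGL (⇑Q)) (X Y : ι → F) :
    polar Q (ap g X) (ap g Y) = polar Q X Y :=
  Orth.polar_ap (Orth.omegaGL_le hg) X Y

lemma omega_conj {g h : GL ι F} (hg : g ∈ Cfsg.isometryGroup F (⇑Q))
    (hh : h ∈ Cfsg.Geo.omegaGL (⇑Q)) : g * h * g⁻¹ ∈ Cfsg.Geo.omegaGL (⇑Q) := by
  rw [show g * h * g⁻¹ = ⁅g, h⁆ * h by rw [commutatorElement_def]; group]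
  refine mul_mem ?_ hh
  rw [Orth.omegaGL_eq]
  exact Subgroup.commutator_mem_commutator hg (Orth.omegaGL_le hh)

lemma omega_det {g : GL ι F} (hg : g ∈ Cfsg.Geo.omegaGL (⇑Q)) :
    (g : Matrix ι ι F).det = 1 := by
  have h : ⁅Cfsg.isometryGroup F (⇑Q), Cfsg.isometryGroup F (⇑Q)⁆ ≤
      (Matrix.GeneralLinearGroup.det (n := ι) (R := F)).ker := by
    rw [Subgroup.commutator_le]
    intro x _ y _
    simp [MonoidHom.mem_ker, commutatorElement_def]
  rw [Orth.omegaGL_eq] at hg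
  have h1 := MonoidHom.mem_ker.mp (h hg)
  rw [← coe_det_eq, h1, Units.val_one]

/-- Squares of isometries lie in `omegaGL`. -/
lemma sq_mem [Finite F] {g : GL ι F} (hg : g ∈ Cfsg.isometryGroup F (⇑Q)) :
    g * g ∈ Cfsg.Geo.omegaGL (⇑Q) := by
  rw [← Orth.orthToGL_range] at hg
  obtain ⟨G, rfl⟩ := hg
  have hG : G ∈ CfsgLib.ClassicalForms.reflGroup Q := by
    rw [Orth.reflGroup_eq_top' hT.nondeg hT.five_le]; trivial
  rw [← map_mul]
  induction hG using Subgroup.closure_induction with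
  | mem x hx =>
    obtain ⟨a, ha, rfl⟩ := hx
    rw [CfsgLib.ClassicalForms.refl_mul_self, map_one]
    exact one_mem _
  | one => rw [one_mul, map_one]; exact one_mem _
  | mul x y _ _ hx hy =>
    have hc : Orth.orthToGL Q ⁅x⁻¹, y⁆ ∈ Cfsg.Geo.omegaGL (⇑Q) :=
      Orth.orthToGL_mem_omega (Subgroup.commutator_mem_commutator trivial trivial)
    rw [show x * y * (x * y) = x * x * ⁅x⁻¹, y⁆ * (y * y) by rw [commutatorElement_def]; group,
      map_mul, map_mul]
    exact mul_mem (mul_mem hx hc) hy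
  | inv x _ hx => rw [← _root_.mul_inv_rev, map_inv]; exact inv_mem hx

/-- Isometries of odd order lie in `omegaGL`. -/
lemma mem_of_odd [Finite F] {g : GL ι F} (hg : g ∈ Cfsg.isometryGroup F (⇑Q)) {m : ℕ}
    (hm : Odd m) (h : g ^ m = 1) : g ∈ Cfsg.Geo.omegaGL (⇑Q) := by
  obtain ⟨k, rfl⟩ := hm
  rw [show g = g ^ (k + 1) * g ^ (k + 1) by
    rw [← pow_add, show k + 1 + (k + 1) = (2 * k + 1) + 1 by omega, pow_succ, h, one_mul]]
  exact hT.sq_mem (pow_mem hg _)

lemma kron_omega {a b : GL (Fin 3) F} (ha : a ∈ ⁅O3 F, O3 F⁆) (hb : b ∈ ⁅O3 F, O3 F⁆) :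
    kron e P a b ∈ Cfsg.Geo.omegaGL (⇑Q) := by
  let φ₁ : GL (Fin 3) F →* GL ι F :=
    MonoidHom.mk' (fun a => kron e P a (1 : GL (Fin 3) F)) fun a a' => by rw [← kron_mul', one_mul]
  have h1 : (⁅O3 F, O3 F⁆).map φ₁ ≤ Cfsg.Geo.omegaGL (⇑Q) := by
    rw [Subgroup.map_commutator, Orth.omegaGL_eq]
    refine Subgroup.commutator_mono ?_ ?_ <;>
    · rintro _ ⟨x, hx, rfl⟩
      exact hT.kron_isometry hx (one_mem _)
  have ha' : kron e P a 1 ∈ Cfsg.Geo.omegaGL (⇑Q) := h1 ⟨a, ha, rfl⟩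
  have hb' : kron e P b 1 ∈ Cfsg.Geo.omegaGL (⇑Q) := h1 ⟨b, hb, rfl⟩
  have hb'' := hT.omega_conj hT.sw_isometry hb'
  rw [sw_inv, conj_sw_kron] at hb''
  have h := mul_mem ha' hb''
  rwa [← kron_mul', mul_one, one_mul] at h

/-- A factorwise isometry is the product of factorwise isometries, the first a rotation. -/
lemma kron_normal {a b : GL (Fin 3) F} (h : kron e P a b ∈ Cfsg.isometryGroup F (⇑Q)) :
    ∃ a' b', a' ∈ SO3 F ∧ b' ∈ O3 F ∧ kron e P a b = kron e P a' b' := by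
  have key : ∀ x y x' y', (ap a x ⬝ᵥ ap a x') * (ap b y ⬝ᵥ ap b y') =
      (x ⬝ᵥ x') * (y ⬝ᵥ y') := by
    intro x y x' y'
    have h1 := Orth.polar_ap h (pt e P x y) (pt e P x' y')
    rw [ap_kron, ap_kron, hT.polar_pt, hT.polar_pt] at h1
    exact mul_left_cancel₀ hT.c_ne h1
  set e0 : Fin 3 → F := Pi.single 0 1
  have he0 : e0 ⬝ᵥ e0 = 1 := by simp [e0]
  set ν := ap b e0 ⬝ᵥ ap b e0 with hν
  have hν0 : ν ≠ 0 := fun h0 => by
    have := key e0 e0 e0 e0
    rw [← hν, h0, mul_zero, he0, mul_one] at this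
    exact zero_ne_one this
  have hμ : ∀ x x', ap a x ⬝ᵥ ap a x' = ν⁻¹ * (x ⬝ᵥ x') := fun x x' => by
    have := key x e0 x' e0
    rw [← hν, he0, mul_one] at this
    field_simp
    linear_combination this
  set d := (a : Matrix (Fin 3) (Fin 3) F).det with hd
  have hd0 : d ≠ 0 := (Matrix.isUnit_iff_isUnit_det _).mp a.isUnit |>.ne_zero
  have hdd : d * d = ν⁻¹ ^ 3 := by
    have hm : (a : Matrix (Fin 3) (Fin 3) F)ᵀ * (a : Matrix (Fin 3) (Fin 3) F) = ν⁻¹ • 1 := by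
      ext i j
      have h := hμ (Pi.single i 1) (Pi.single j 1)
      simp [ap, dotProduct, Pi.single_apply] at h
      simp [Matrix.mul_apply, Matrix.one_apply, h, eq_comm]
    have h := congrArg Matrix.det hm
    rwa [Matrix.det_mul, Matrix.det_transpose, Matrix.det_smul, Matrix.det_one, mul_one,
      Fintype.card_fin, ← hd] at h
  -- the scalar making `a` a rotation
  set r := d * ν with hr
  have hr0 : r ≠ 0 := mul_ne_zero hd0 hν0
  have hrr : r⁻¹ * r⁻¹ * ν⁻¹ = 1 := by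
    rw [hr]; field_simp
    rw [inv_pow] at hdd
    field_simp at hdd
    linear_combination -hdd
  let a' : GL (Fin 3) F := ofEquiv ((LinearEquiv.smulOfNeZero F (Fin 3 → F) r⁻¹
    (inv_ne_zero hr0)).trans (apEquiv a)).symm.symm
  let b' : GL (Fin 3) F := ofEquiv ((LinearEquiv.smulOfNeZero F (Fin 3 → F) r hr0).trans
    (apEquiv b))
  have ea : ∀ x, ap a' x = r⁻¹ • ap a x := fun x => by
    simp [a', ap_smul]
  have eb : ∀ y, ap b' y = r • ap b y := fun y => by simp [b', ap_smul]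
  have ha' : a' ∈ O3 F := mem_O3.mpr fun x x' => by
    rw [ea, ea, smul_dotProduct, dotProduct_smul, hμ, smul_eq_mul, smul_eq_mul]
    linear_combination (x ⬝ᵥ x') * hrr
  have hda : (a' : Matrix (Fin 3) (Fin 3) F).det = r⁻¹ ^ 3 * d := by
    have : (a' : Matrix (Fin 3) (Fin 3) F) = r⁻¹ • (a : Matrix (Fin 3) (Fin 3) F) :=
      Matrix.ext_of_mulVec_single fun j => by rw [← ap_def, ea, Matrix.smul_mulVec]; rfl
    rw [this, Matrix.det_smul, Fintype.card_fin, hd]
  refine ⟨a', b', mem_SO3.mpr ⟨ha', ?_⟩, mem_O3.mpr fun y y' => ?_, ?_⟩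
  · rw [hda, hr, inv_pow] at *
    field_simp at hdd ⊢
    linear_combination -hdd
  · rw [eb, eb, smul_dotProduct, dotProduct_smul, smul_eq_mul, smul_eq_mul]
    have h1 := key e0 y e0 y'
    rw [hμ, he0, mul_one, one_mul] at h1
    rw [hr]
    have : d * d * ν * ν * ν = 1 := by rw [hdd]; field_simp
    linear_combination (d * ν) * (d * ν) * ν * h1 + (y ⬝ᵥ y') * this -
      (d * ν) * (d * ν) * (ap b y ⬝ᵥ ap b y') * mul_inv_cancel₀ hν0
  · refine gl_ext_pt e P fun x y => ?_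
    rw [ap_kron, ap_kron, ea, eb, pt_smul_left, pt_smul_right, smul_smul, inv_mul_cancel₀ hr0,
      one_smul]

lemma det_sw_kron {a b : GL (Fin 3) F} :
    ((kron e P a b : GL ι F) : Matrix ι ι F).det =
      (a : Matrix (Fin 3) (Fin 3) F).det ^ 3 * (b : Matrix (Fin 3) (Fin 3) F).det ^ 3 :=
  det_kron e P a b

/-- The elements of the stabiliser in `omegaGL`. -/
lemma normal_form {g : GL ι F} (hg : g ∈ TT e P) (hΩ : g ∈ Cfsg.Geo.omegaGL (⇑Q)) :
    (∃ a b, a ∈ SO3 F ∧ b ∈ SO3 F ∧ g = kron e P a b) ∨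
      ∃ a b, a ∈ SO3 F ∧ b ∈ O3 F ∧ g = kron e P a b * sw e P := by
  obtain ⟨a, b, rfl | rfl⟩ := hg
  · obtain ⟨a', b', ha, hb, h⟩ := hT.kron_normal (Orth.omegaGL_le hΩ)
    refine Or.inl ⟨a', b', ha, mem_SO3.mpr ⟨hb, ?_⟩, h⟩
    have hd := hT.omega_det hΩ
    rw [h, hT.det_sw_kron, (mem_SO3.mp ha).2, one_pow, one_mul, pow_succ, _root_.sq, det_sq hb,
      one_mul] at hd
    exact hd
  · obtain ⟨a', b', ha, hb, h⟩ := hT.kron_normal (a := a) (b := b) (by
      have h1 := mul_mem (Orth.omegaGL_le hΩ) hT.sw_isometry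
      rwa [mul_assoc, sw_mul_self, mul_one] at h1)
    exact Or.inr ⟨a', b', ha, hb, by rw [h]⟩

omit hT in
/-- An overgroup of the stabiliser in `omegaGL`, not everything. -/
structure Over (hT : Data Q e P c) (M : Subgroup (GL ι F)) : Prop where
  le : M ≤ Cfsg.Geo.omegaGL (⇑Q)
  mem : ∀ g ∈ TT e P, g ∈ Cfsg.Geo.omegaGL (⇑Q) → g ∈ M
  small : ¬ Cfsg.Geo.omegaGL (⇑Q) ≤ M

variable {M : Subgroup (GL ι F)}

omit hT in
/-- The conjugate by the exchange of the factors. -/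
def flip (hT : Data Q e P c) (M : Subgroup (GL ι F)) : Subgroup (GL ι F) :=
  M.map (MulAut.conj (sw e P)).toMonoidHom

lemma mem_flip {g : GL ι F} : g ∈ hT.flip M ↔ sw e P * g * sw e P ∈ M := by
  constructor
  · rintro ⟨h, hh, rfl⟩
    rwa [show sw e P * (MulAut.conj (sw e P)).toMonoidHom h * sw e P = h by
      simp [MulAut.conj_apply, sw_inv, mul_assoc, sw_mul_self, ← mul_assoc (sw e P) (sw e P)]]
  · intro h
    exact ⟨_, h, by
      simp [MulAut.conj_apply, sw_inv, mul_assoc, sw_mul_self, ← mul_assoc (sw e P) (sw e P)]⟩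

lemma Over.flip (hO : hT.Over M) : hT.Over (hT.flip M) where
  le g hg := by
    have h := hT.omega_conj hT.sw_isometry (hO.le (hT.mem_flip.mp hg))
    rwa [sw_inv, show sw e P * (sw e P * g * sw e P) * sw e P = g by
      simp [mul_assoc, sw_mul_self, ← mul_assoc (sw e P) (sw e P)]] at h
  mem g hg hΩ := hT.mem_flip.mpr (hO.mem _ (mul_mem (mul_mem sw_mem_TT hg) sw_mem_TT) (by
    have h := hT.omega_conj hT.sw_isometry hΩ
    rwa [sw_inv] at h))
  small h := hO.small fun g hg => by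
    have h1 := hT.mem_flip.mp (h (hT.omega_conj hT.sw_isometry hg))
    rwa [sw_inv, show sw e P * (sw e P * g * sw e P) * sw e P = g by
      simp [mul_assoc, sw_mul_self, ← mul_assoc (sw e P) (sw e P)]] at h1

lemma Over.kron_mem (hO : hT.Over M) {a b : GL (Fin 3) F} (ha : a ∈ ⁅O3 F, O3 F⁆)
    (hb : b ∈ ⁅O3 F, O3 F⁆) : kron e P a b ∈ M :=
  hO.mem _ (kron_mem_TT a b) (hT.kron_omega ha hb)

end Data

end CfsgLib.Geometric.TSquare
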