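import Cfsg.Agent.S0633
import Cfsg.Agent.Lib.PSolvable.Basic
import Cfsg.Agent.Lib.Geometric.Basic

/-!
In characteristic at least five a unipotent linear map with nilpotency degree at most three
centralises every finite subgroup of order prime to the characteristic which it normalises.
-/

set_option autoImplicit false
set_option linter.unusedSectionVars false
set_option linter.style.haveILetI false

namespace CfsgLib.Geometric.TSquare

open Polynomial
open scoped MatrixGroups Pointwise

variable {ι : Type} [Fintype ι] [DecidableEq ι] [Nonempty ι] {F : Type*} [Field F] [Finite F]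

/-- Hall and Higman: such a unipotent map centralises the subgroups of coprime order it normalises. -/
theorem commute_of_cube {p : ℕ} [Fact p.Prime] [CharP F p] (hp5 : 5 ≤ p) {K : Subgroup (GL ι F)}
    (hK : ¬ p ∣ Nat.card K) {u : GL ι F}
    (hu : u ∈ Subgroup.normalizer (K : Set (GL ι F))) (hup : u ^ p = 1)
    (h3 : ∀ X, ((apEquiv u).toLinearMap - LinearMap.id : Module.End F (ι → F))
      (((apEquiv u).toLinearMap - LinearMap.id : Module.End F (ι → F))
        (((apEquiv u).toLinearMap - LinearMap.id : Module.End F (ι → F)) X)) = 0)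
    {k : GL ι F} (hk : k ∈ K) : u * k = k * u := by
  have hp : p.Prime := Fact.out
  by_cases hu1 : u = 1
  · rw [hu1, one_mul, mul_one]
  let φ : GL ι F →* ((ι → F) ≃ₗ[F] (ι → F)) :=
    MonoidHom.mk' apEquiv fun a b => LinearEquiv.ext fun x => ap_mul a b x
  have hφ : Function.Injective φ := fun a b h => gl_ext fun x =>
    LinearMap.congr_fun (congrArg LinearEquiv.toLinearMap h) x
  set S := K ⊔ Subgroup.zpowers u with hS
  have hnorm : Subgroup.zpowers u ≤ Subgroup.normalizer (K : Set (GL ι F)) :=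
    Subgroup.zpowers_le.mpr hu
  have hmem : ∀ h ∈ S, ∃ k ∈ K, ∃ i : ℤ, h = k * u ^ i := fun h hh => by
    have h1 := Subgroup.coe_mul_of_right_le_normalizer_left K _ hnorm
    obtain ⟨k, hk, z, hz, rfl⟩ := Set.mem_mul.mp (h1 ▸ (SetLike.mem_coe.mpr hh) :
      h ∈ (K : Set (GL ι F)) * (Subgroup.zpowers u : Set (GL ι F)))
    obtain ⟨i, rfl⟩ := Subgroup.mem_zpowers_iff.mp hz
    exact ⟨k, hk, i, rfl⟩
  have hSN : S ≤ Subgroup.normalizer (K : Set (GL ι F)) :=
    sup_le Subgroup.le_normalizer hnorm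
  haveI hKn : (K.subgroupOf S).Normal := Subgroup.normal_subgroupOf_of_le_normalizer hSN
  have huS : u ∈ S := Subgroup.mem_sup_right (Subgroup.mem_zpowers u)
  have hkS : k ∈ S := Subgroup.mem_sup_left hk
  have hcardK : Nat.card (K.subgroupOf S) = Nat.card K :=
    Nat.card_congr (Subgroup.subgroupOfEquivOfLe le_sup_left).toEquiv
  -- the quotient by `K` is generated by the image of `u`
  have hq : IsPGroup p (↥S ⧸ K.subgroupOf S) := by
    intro y
    obtain ⟨h, rfl⟩ := QuotientGroup.mk_surjective y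
    refine ⟨1, ?_⟩
    obtain ⟨k', hk', i, hi⟩ := hmem h h.2
    have e : (QuotientGroup.mk h : ↥S ⧸ K.subgroupOf S) = QuotientGroup.mk (⟨u, huS⟩ ^ i) := by
      rw [QuotientGroup.eq, Subgroup.mem_subgroupOf]
      have h1 : (u ^ i)⁻¹ * k'⁻¹ * (u ^ i) ∈ K := by
        have hn := hnorm (zpow_mem (Subgroup.mem_zpowers u) (-i))
        have := (Subgroup.mem_normalizer_iff.mp hn k'⁻¹).mp (inv_mem hk')
        simpa [zpow_neg, mul_assoc] using this
      simpa [hi, mul_assoc] using h1
    have hu' : (⟨u, huS⟩ : S) ^ p = 1 := Subtype.ext hup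
    rw [pow_one, e, ← QuotientGroup.mk_pow, ← zpow_natCast, ← zpow_mul, mul_comm, zpow_mul,
      zpow_natCast, hu', one_zpow, QuotientGroup.mk_one]
  have hsolS : Cfsg.IsPSolvable p S :=
    CfsgLib.PSolvable.isPSolvable_of_extension (K.subgroupOf S)
      (CfsgLib.PSolvable.isPSolvable_of_not_dvd (by rwa [hcardK]))
      (CfsgLib.PSolvable.isPSolvable_of_isPGroup hq)
  by_cases hcore : Cfsg.pCore p S = ⊥
  swap
  · -- a normal `p`-subgroup centralises `K` and covers `u`
    rw [CfsgLib.Cores.pCore_eq_bot_iff] at hcore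
    push Not at hcore
    obtain ⟨N, hN, hNp, hN1⟩ := hcore
    haveI := hN
    have hdisj : N ⊓ K.subgroupOf S = ⊥ := by
      rw [← Subgroup.card_eq_one]
      have h1 : Nat.card ↥(N ⊓ K.subgroupOf S) ∣ Nat.card K :=
        hcardK ▸ Subgroup.card_dvd_of_le inf_le_right
      obtain ⟨j, hj⟩ := (hNp.to_le (inf_le_left : N ⊓ K.subgroupOf S ≤ N)).exists_card_eq
      rcases j with - | j
      · simpa using hj
      · exact absurd ((Dvd.intro_left _ (pow_succ p j).symm).trans (hj ▸ h1)) hK
    have hcomm : ∀ n ∈ N, ∀ m ∈ K.subgroupOf S, n * m = m * n := fun n hn m hm => by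
      have h1 : n * m * n⁻¹ * m⁻¹ ∈ N ⊓ K.subgroupOf S := by
        refine ⟨?_, (K.subgroupOf S).mul_mem (hKn.conj_mem m hm n) ((K.subgroupOf S).inv_mem hm)⟩
        rw [show n * m * n⁻¹ * m⁻¹ = n * (m * n⁻¹ * m⁻¹) by group]
        exact N.mul_mem hn (hN.conj_mem _ (N.inv_mem hn) m)
      rw [hdisj, Subgroup.mem_bot, mul_inv_eq_one, mul_inv_eq_iff_eq_mul] at h1
      exact h1
    obtain ⟨n, hn, hn1⟩ := N.bot_or_exists_ne_one.resolve_left hN1
    obtain ⟨k', hk', i, hi⟩ := hmem n n.2
    -- `u` is a power of an element of `N` times an element of `K`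
    have hi0 : ¬ (p : ℤ) ∣ i := by
      intro hd
      obtain ⟨j, rfl⟩ := hd
      rw [zpow_mul, zpow_natCast, hup, one_zpow, mul_one] at hi
      refine hn1 ?_
      have : n ∈ N ⊓ K.subgroupOf S := ⟨hn, Subgroup.mem_subgroupOf.mpr (hi ▸ hk')⟩
      rwa [hdisj, Subgroup.mem_bot] at this
    have hk'N : (⟨k', Subgroup.mem_sup_left hk'⟩ : S) * n = n * ⟨k', Subgroup.mem_sup_left hk'⟩ :=
      (hcomm n hn _ (by rwa [Subgroup.mem_subgroupOf])).symm
    have hk'u : k' * (k' * u ^ i) = (k' * u ^ i) * k' := by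
      have := congrArg Subtype.val hk'N
      simpa [hi] using this
    have hnk : (k' * u ^ i) * k = k * (k' * u ^ i) := by
      have := congrArg Subtype.val (hcomm n hn ⟨k, hkS⟩ (by rwa [Subgroup.mem_subgroupOf]))
      simpa [hi] using this
    -- `k'` commutes with `u ^ i`, so it is trivial
    have hku : Commute k' (u ^ i) := by
      have h1 : k' * (k' * u ^ i) = k' * (u ^ i * k') := by rw [hk'u, mul_assoc]
      exact mul_left_cancel h1
    have hk'1 : k' = 1 := by
      obtain ⟨j, hj⟩ := hNp ⟨n, hn⟩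
      have h1 : (k' * u ^ i) ^ p ^ (j + 1) = 1 := by
        rw [pow_succ, pow_mul, ← hi]
        have h2 : (n : GL ι F) ^ p ^ j = 1 := by
          have := congrArg (fun x : N => ((x : S) : GL ι F)) hj
          simpa using this
        rw [h2, one_pow]
      have hzi : (u ^ i) ^ p ^ (j + 1) = 1 := by
        rw [← zpow_natCast, ← zpow_mul, mul_comm i, zpow_mul, zpow_natCast, pow_succ', pow_mul,
          hup, one_pow, one_zpow]
      rw [hku.mul_pow, hzi, mul_one] at h1
      have h3 : orderOf k' ∣ Nat.gcd (p ^ (j + 1)) (Nat.card K) :=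
        Nat.dvd_gcd (orderOf_dvd_of_pow_eq_one h1)
          ((Subgroup.orderOf_coe (⟨k', hk'⟩ : K)).symm ▸ orderOf_dvd_natCard (⟨k', hk'⟩ : K))
      rw [((hp.coprime_iff_not_dvd.mpr hK).pow_left _).gcd_eq_one, Nat.dvd_one] at h3
      exact orderOf_eq_one_iff.mp h3
    rw [hk'1, one_mul] at hnk
    obtain ⟨a, b, hab⟩ : IsCoprime i (p : ℤ) :=
      ((Nat.prime_iff_prime_int.mp hp).coprime_iff_not_dvd.mpr hi0).symm
    have hu' : u = (u ^ i) ^ a := by
      conv_lhs => rw [← zpow_one u, ← hab]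
      rw [zpow_add, mul_comm a, mul_comm b, zpow_mul, zpow_mul, zpow_natCast, hup, one_zpow,
        mul_one]
    rw [hu']
    exact (Commute.zpow_left hnk a)
  -- the minimal polynomial
  exfalso
  haveI : Nontrivial (ι → F) := inferInstance
  set H := S.map φ
  set eS : S ≃* H := S.equivMapOfInjective φ hφ
  have hsolH : Cfsg.IsPSolvable p H := CfsgLib.PSolvable.isPSolvable_of_equiv eS hsolS
  have hcoreH : Cfsg.pCore p H = ⊥ := by
    rw [CfsgLib.Cores.pCore_eq_bot_iff] at hcore ⊢
    intro N hN hNp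
    have h1 := hcore (N.comap eS.toMonoidHom) (hN.comap _) (hNp.comap_of_injective _ eS.injective)
    rw [← Subgroup.map_comap_eq_self_of_surjective (f := eS.toMonoidHom) eS.surjective N, h1,
      Subgroup.map_bot]
  have hord : orderOf (φ u) = p ^ 1 := by
    rw [orderOf_injective φ hφ, pow_one, orderOf_eq_prime hup hu1]
  haveI : Finite H := Finite.of_equiv S eS.toEquiv
  set eu : Module.End F (ι → F) := ((φ u : (ι → F) ≃ₗ[F] (ι → F)) : Module.End F (ι → F))
  have hdvd : minpoly F eu ∣ (X - C (1 : F)) ^ 3 := by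
    refine minpoly.dvd F eu ?_
    rw [map_pow, map_sub, aeval_X, aeval_C, map_one]
    refine LinearMap.ext fun X => ?_
    exact h3 X
  obtain ⟨r, hr3, hr⟩ := (dvd_prime_pow (prime_X_sub_C (1 : F)) 3).mp hdvd
  have hr' : minpoly F eu = (X - 1 : F[X]) ^ r := by
    have := eq_of_monic_of_associated (minpoly.monic (Algebra.IsIntegral.isIntegral eu))
      ((monic_X_sub_C 1).pow r) hr
    rwa [C_1] at this
  rcases Cfsg.Agent.S0633.result H hsolH hcoreH (φ u) (Subgroup.mem_map_of_mem φ huS) 1 hord r hr'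
    with h | ⟨n₀, q, m, h1, h2, -, -, -, -, h⟩
  · rw [pow_one] at h; omega
  · obtain rfl : n₀ = 1 := le_antisymm h2 h1
    simp only [Nat.sub_self, pow_zero, pow_one, one_mul] at h
    omega

end CfsgLib.Geometric.TSquare
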