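import Cfsg.Agent.Lib.Geometric.Orth.TensorSquare.Radical
import Cfsg.Agent.Lib.Geometric.Orth.TensorSquare.Coprime
import Cfsg.Agent.Lib.CoprimeAction.Abelian

/-!
The centraliser of a factorwise half-turn in an overgroup of the stabiliser of a tensor square lies
in the stabiliser.
-/

set_option autoImplicit false
set_option linter.unusedSectionVars false
set_option linter.unusedSimpArgs false
set_option linter.style.haveILetI false

namespace CfsgLib.Geometric.TSquare

open Matrix Tensor QuadraticMap OrthTensor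

variable {ι : Type} [Fintype ι] [DecidableEq ι] {F : Type*} [Field F] [Finite F]
variable {e : ι ≃ Fin 3 × Fin 3} {P : GL ι F} {Q : QuadraticForm F (ι → F)} {c : F}

/-- The half-turns are not trivial. -/
lemma ht_ne_one (h2 : (2 : F) ≠ 0) (x : Fin 3 → F) : ht x ≠ 1 := fun h => by
  obtain ⟨u, hu0, hux⟩ := exists_ne_perp h2 x
  have h1 := ap_ht_perp hux
  rw [h, ap_one] at h1
  have : (2 : F) • u = 0 := by rw [two_smul]; nth_rw 1 [h1]; simp
  exact hu0 ((smul_eq_zero.mp this).resolve_left h2)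

lemma O3_aniso {a : GL (Fin 3) F} (ha : a ∈ O3 F) {x : Fin 3 → F} (hx : x ⬝ᵥ x ≠ 0) :
    ap a x ⬝ᵥ ap a x ≠ 0 := by rwa [O3_dot ha]

namespace Data

variable (hT : Data Q e P c) {M : Subgroup (GL ι F)}
include hT

/-- The elements of the stabiliser commuting with a half-turn of the first factor. -/
lemma normal_commute {g : GL ι F} (hg : g ∈ TT e P) (hΩ : g ∈ Cfsg.Geo.omegaGL (⇑Q))
    {x : Fin 3 → F} (hx : x ⬝ᵥ x ≠ 0) (hc : g * kron e P (ht x) 1 = kron e P (ht x) 1 * g) :
    ∃ a b, a ∈ SO3 F ∧ b ∈ SO3 F ∧ g = kron e P a b ∧ a * ht x = ht x * a ∧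
      ∃ t : F, ap a x = t • x := by
  have h2 := hT.two
  rcases hT.normal_form hg hΩ with ⟨a, b, ha, hb, rfl⟩ | ⟨a, b, ha, hb, rfl⟩
  · have h1 : kron e P (a * ht x) b = kron e P (ht x * a) b := by
      rw [← kron_mul', ← kron_mul', mul_one, one_mul] at hc
      exact hc
    have hh := ht_mem_SO3 h2 hx
    have ha' := (kron_inj h2 (mul_mem ha hh) hb (mul_mem hh ha) hb h1).1
    refine ⟨a, b, ha, hb, rfl, ha', ?_⟩
    have h3 := ht_conj (mem_SO3.mp ha).1 x
    rw [ha', mul_inv_cancel_right] at h3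
    obtain ⟨t, -, ht⟩ := axis_unique h2 hx (O3_aniso (mem_SO3.mp ha).1 hx) h3
    exact ⟨t, ht⟩
  · exfalso
    have hbh : b * ht x * b⁻¹ = ht (ap b x) := ht_conj hb x
    have h1 : kron e P (ht x) (1 : GL (Fin 3) F) = kron e P 1 (ht (ap b x)) := by
      rw [← hbh]
      have e1 : kron e P (ht x) 1 =
          kron e P a b * sw e P * kron e P (ht x) 1 * (kron e P a b * sw e P)⁻¹ := by
        rw [hc, mul_inv_cancel_right]
      rw [e1, _root_.mul_inv_rev, sw_inv, mul_assoc (kron e P a b), sw_kron, kron_inv,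
        mul_assoc (kron e P a b), mul_assoc (kron e P 1 (ht x)), ← mul_assoc (sw e P) (sw e P),
        sw_mul_self, one_mul, ← kron_mul', ← kron_mul', one_mul, mul_inv_cancel, mul_assoc]
    exact ht_ne_one h2 x (kron_inj h2 (ht_mem_SO3 h2 hx) (one_mem _) (one_mem _)
      (ht_mem_SO3 h2 (O3_aniso hb hx)) h1).1

/-- The unipotent-conjugation criterion for the second factor. -/
lemma unip_mem' (hO : hT.Over M) {u f v : Fin 3 → F} (hτ : Trip u f v) {s : F} (hs : s ≠ 0)
    {g : GL ι F} (hgM : g ∈ M) {b : GL (Fin 3) F}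
    (h : g * kron e P 1 (rt hT.two hτ s) * g⁻¹ = kron e P b 1 ∨
      g * kron e P 1 (rt hT.two hτ s) * g⁻¹ = kron e P 1 b) : g ∈ TT e P := by
  have hg' : sw e P * g * sw e P ∈ hT.flip M := hT.mem_flip.mpr (by
    simpa [mul_assoc, sw_mul_self, ← mul_assoc (sw e P) (sw e P)] using hgM)
  have hkey : sw e P * g * sw e P * kron e P (rt hT.two hτ s) 1 * (sw e P * g * sw e P)⁻¹ =
      sw e P * (g * kron e P 1 (rt hT.two hτ s) * g⁻¹) * sw e P := by
    rw [← conj_sw_kron (e := e) (P := P) (rt hT.two hτ s) 1, _root_.mul_inv_rev,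
      _root_.mul_inv_rev, sw_inv]
    group
  have h1 : sw e P * g * sw e P ∈ TT e P := hT.unip_mem (hO.flip hT) hτ hs hg' (b := b) (by
    rw [hkey]
    rcases h with h | h <;> rw [h, conj_sw_kron]
    · exact Or.inr rfl
    · exact Or.inl rfl)
  have h3 := mul_mem (mul_mem (sw_mem_TT (e := e) (P := P)) h1) sw_mem_TT
  simpa [mul_assoc, sw_mul_self, ← mul_assoc (sw e P) (sw e P)] using h3

/-- Elements of `p`-power order in the stabiliser commuting with a half-turn of the first factor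
come from the second factor. -/
lemma p_commute {p k : ℕ} [Fact p.Prime] [CharP F p] (hp : p ≠ 2) {g : GL ι F} (hg : g ∈ TT e P)
    (hΩ : g ∈ Cfsg.Geo.omegaGL (⇑Q)) {x : Fin 3 → F} (hx : x ⬝ᵥ x ≠ 0)
    (hc : g * kron e P (ht x) 1 = kron e P (ht x) 1 * g) (hgk : g ^ p ^ k = 1) :
    ∃ b, b ∈ SO3 F ∧ b ^ p ^ k = 1 ∧ g = kron e P 1 b := by
  obtain ⟨a, b, ha, hb, rfl, -, t, hat⟩ := hT.normal_commute hg hΩ hx hc
  rw [kron_pow'] at hgk
  obtain ⟨hak, hbk⟩ := kron_eq_one hT.two (pow_mem ha _) (pow_mem hb _) hgk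
  exact ⟨b, hb, hbk, by rw [eq_one_of_line hT.two (mem_SO3.mp ha).1 hp hak hx hat]⟩

lemma cube_kron {u f v : Fin 3 → F} (hτ : Trip u f v) (s : F) (X : ι → F) :
    ((apEquiv (kron e P 1 (rt hT.two hτ s))).toLinearMap - LinearMap.id : Module.End F (ι → F))
      (((apEquiv (kron e P 1 (rt hT.two hτ s))).toLinearMap - LinearMap.id :
          Module.End F (ι → F))
        (((apEquiv (kron e P 1 (rt hT.two hτ s))).toLinearMap - LinearMap.id :
          Module.End F (ι → F)) X)) = 0 := by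
  set D : Module.End F (ι → F) :=
    (apEquiv (kron e P 1 (rt hT.two hτ s))).toLinearMap - LinearMap.id with hD
  have h : D ∘ₗ D ∘ₗ D = 0 := ext_pt e P fun x y => by
    have h1 : ∀ z, D (pt e P x z) = pt e P x (ap (rt hT.two hτ s) z - z) := fun z => by
      simp [hD, pt_sub_right]
    rw [LinearMap.comp_apply, LinearMap.comp_apply, h1, h1, h1, LinearMap.zero_apply]
    convert pt_zero_right e P x using 2
    simp only [ap_rt, add_sub_cancel_left, add_sub_assoc, sub_dotProduct, smul_dotProduct,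
      smul_eq_mul, hτ.ve, hτ.ee, hτ.vv, hτ.ev]
    match_scalars <;> ring
  exact LinearMap.congr_fun h X

/-- The centraliser of a factorwise half-turn lies in the stabiliser. -/
theorem root_cent (hO : hT.Over M) {x : Fin 3 → F} (hx : x ⬝ᵥ x ≠ 0) {g : GL ι F} (hg : g ∈ M)
    (hc : g * kron e P (ht x) 1 = kron e P (ht x) 1 * g) : g ∈ TT e P := by
  classical
  have h2 := hT.two
  have := Fintype.ofFinite F
  obtain ⟨p, hcharp⟩ := CharP.exists F
  haveI := Fact.mk (CharP.char_is_prime F p)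
  have hp2 : p ≠ 2 := fun h => h2 (by subst h; exact_mod_cast CharP.cast_eq_zero F 2)
  obtain ⟨u, f, v, hτ⟩ := exists_trip' (F := F) h2
  set t := kron e P (ht x) (1 : GL (Fin 3) F) with ht'
  set C : Subgroup (GL ι F) := M ⊓ Subgroup.centralizer {t} with hC
  have hmemC : ∀ {k : GL ι F}, k ∈ C ↔ k ∈ M ∧ k * t = t * k := fun {k} => by
    rw [hC, Subgroup.mem_inf, Subgroup.mem_centralizer_singleton_iff]
  -- the unipotent subgroup
  let φ : Multiplicative F →* GL ι F :=
    MonoidHom.mk' (fun s => kron e P 1 (rt h2 hτ (Multiplicative.toAdd s))) fun s s' => by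
      rw [← kron_mul', one_mul, rt_mul, toAdd_mul]
  set U := φ.range with hUdef
  have hUC : U ≤ C := by
    rintro _ ⟨s, rfl⟩
    refine hmemC.mpr ⟨hO.kron_mem hT (one_mem _) (rt_mem h2 hτ _), ?_⟩
    simp [φ, ht', ← kron_mul']
  have hUp : ∀ w ∈ U, w ^ p = 1 := by
    rintro _ ⟨s, rfl⟩
    simp only [φ, MonoidHom.mk'_apply]
    rw [kron_pow', one_pow, rt_pow, CharP.cast_eq_zero, zero_mul, rt_zero, kron_one']
  have hUpg : IsPGroup p U := fun w => ⟨1, Subtype.ext (by simpa using hUp w w.2)⟩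
  have hCpr : ∀ {n : GL ι F}, n ∈ C → ∀ s : F, s ≠ 0 →
      n * φ (Multiplicative.ofAdd s) * n⁻¹ ∈ U → n ∈ TT e P := by
    intro n hn s hs hmem
    obtain ⟨s', hs'⟩ := hmem
    exact hT.unip_mem' hO hτ hs (hmemC.mp hn).1 (b := rt h2 hτ (Multiplicative.toAdd s'))
      (Or.inr hs'.symm)
  -- a Sylow subgroup equals it
  obtain ⟨S, hS⟩ := (hUpg.comap_of_injective C.subtype C.subtype_injective :
    IsPGroup p (U.subgroupOf C)).exists_le_sylow
  have hSU : (S : Subgroup C) = U.subgroupOf C := by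
    refine le_antisymm ?_ hS
    by_contra hne
    have hlt : (U.subgroupOf C).subgroupOf S < ⊤ := lt_top_iff_ne_top.mpr fun h => hne
      (Subgroup.subgroupOf_eq_top.mp h)
    haveI := S.2.isNilpotent
    obtain ⟨n, hn, hn'⟩ := SetLike.exists_of_lt
      (Group.normalizerCondition_of_isNilpotent (G := S) _ hlt)
    set N : GL ι F := ((n : C) : GL ι F)
    have hNC : N ∈ C := (n : C).2
    have hmove : ∀ w ∈ U, N * w * N⁻¹ ∈ U := by
      intro w hw
      have hwS : (⟨w, hUC hw⟩ : C) ∈ (S : Subgroup C) := hS (by simpa [Subgroup.mem_subgroupOf] using hw)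
      have h1 := (Subgroup.mem_normalizer_iff.mp hn ⟨⟨w, hUC hw⟩, hwS⟩).mp
        (by simpa [Subgroup.mem_subgroupOf] using hw)
      simpa [Subgroup.mem_subgroupOf] using h1
    have hNT : N ∈ TT e P := hCpr hNC 1 one_ne_zero (hmove _ ⟨_, rfl⟩)
    obtain ⟨j, hj⟩ := S.2 n
    have hNj : N ^ p ^ j = 1 := by
      have := congrArg (fun z : S => ((z : C) : GL ι F)) hj
      simpa [N] using this
    obtain ⟨b, hb, hbj, hNb⟩ := hT.p_commute hp2 hNT (hO.le (hmemC.mp hNC).1) hx (hmemC.mp hNC).2 hNj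
    obtain ⟨s', hs'⟩ := hmove _ ⟨Multiplicative.ofAdd (1 : F), rfl⟩
    simp only [φ, MonoidHom.mk'_apply, toAdd_ofAdd, hNb, kron_inv, ← kron_mul', one_mul,
      inv_one, mul_one] at hs'
    have hsame := (kron_inj h2 (one_mem _) (SO3_of_commutator (rt_mem h2 hτ _)) (one_mem _)
      (mul_mem (mul_mem hb (SO3_of_commutator (rt_mem h2 hτ _))) (inv_mem hb)) hs').2
    set s'' := Multiplicative.toAdd s'
    have hs0 : s'' ≠ 0 := fun h0 => by
      rw [h0, rt_zero, eq_comm, mul_inv_eq_one, mul_eq_left] at hsame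
      exact one_ne_zero (rt_inj h2 hτ hsame)
    have hfix : ap (rt h2 hτ s'') (ap b u) = ap b u := by
      rw [hsame, ap_mul, ap_mul, ap_inv_ap, rt_e]
    have hbu : ∃ l : F, ap b u = l • u := by
      refine ⟨ap b u ⬝ᵥ f, ?_⟩
      have h0 : ap b u ⬝ᵥ u = 0 := by
        have h1 := congrArg (fun z => z ⬝ᵥ v) hfix
        simp only [ap_rt, add_dotProduct, sub_dotProduct, smul_dotProduct, smul_eq_mul, hτ.vv,
          hτ.ev] at h1
        have h3 : s'' * (ap b u ⬝ᵥ u) = 0 := by linear_combination -h1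
        exact (mul_eq_zero.mp h3).resolve_left hs0
      have h4 : ap b u ⬝ᵥ v = 0 := by
        have h1 := hfix
        rw [ap_rt, h0] at h1
        simp only [mul_zero, zero_smul, add_zero, sub_zero, sub_eq_self] at h1
        have h3 := (smul_eq_zero.mp h1).resolve_right hτ.e_ne
        exact (mul_eq_zero.mp h3).resolve_left hs0
      have := hτ.decomp (ap b u)
      rwa [h0, h4, zero_smul, zero_smul, add_zero, sub_zero] at this
    obtain ⟨l, hl⟩ := hbu
    obtain ⟨s3, hs3⟩ := eq_rt_of_fix h2 hτ (mem_SO3.mp hb).1 (mem_SO3.mp hb).2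
      (fix_of_line hbj hτ.e_ne hl)
    refine hn' (Subgroup.mem_subgroupOf.mpr (Subgroup.mem_subgroupOf.mpr ?_))
    exact ⟨Multiplicative.ofAdd s3, by simp [φ, N] at hNb ⊢; rw [← hs3]; exact hNb.symm⟩
  -- the kernel on the slice of `x`
  let K : Subgroup (GL ι F) :=
    { carrier := {k | k ∈ C ∧ ∀ y, ap k (pt e P x y) = pt e P x y}
      mul_mem' := fun ha hb => ⟨mul_mem ha.1 hb.1, fun y => by rw [ap_mul, hb.2, ha.2]⟩
      one_mem' := ⟨one_mem _, fun y => ap_one _⟩
      inv_mem' := fun ha => ⟨inv_mem ha.1, fun y => by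
        conv_lhs => rw [← ha.2 y, ap_inv_ap]⟩ }
  have hslice : ∀ {k : GL ι F}, k ∈ C → ∀ y,
      ap k (pt e P x y) = pt e P x ((x ⬝ᵥ x)⁻¹ • hT.L x (ap k (pt e P x y))) := by
    intro k hk y
    set X := ap k (pt e P x y)
    have htX : ap t X = X := by
      rw [← ap_mul, ← (hmemC.mp hk).2, ap_mul, ht', ap_kron, ap_ht_self hx, ap_one]
    have he : ∀ Z, ap t Z = -Z + (2 / (x ⬝ᵥ x)) • pt e P x (hT.L x Z) := fun Z => by
      have h : (apEquiv t).toLinearMap =
          -LinearMap.id + (2 / (x ⬝ᵥ x)) • (ptr e P x).comp (hT.L x) := ext_pt e P fun a b => by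
        simp only [LinearEquiv.coe_coe, apEquiv_apply, ht', ap_kron, ap_ht, ap_one,
          LinearMap.add_apply, LinearMap.neg_apply, LinearMap.id_apply, LinearMap.smul_apply,
          LinearMap.comp_apply, L_pt, ptr_apply, pt_smul_right, pt_add_left, pt_smul_left,
          smul_smul]
        rw [show -a = (-1 : F) • a by simp, pt_smul_left]
        module
      exact LinearMap.congr_fun h Z
    rw [he] at htX
    have h3 : (2 : F) • X = (2 : F) • pt e P x ((x ⬝ᵥ x)⁻¹ • hT.L x X) := by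
      rw [pt_smul_right, smul_smul, ← div_eq_mul_inv, two_smul]
      nth_rw 1 [← htX]
      abel
    exact smul_right_injective _ h2 h3
  have hKn : ∀ k ∈ C, ∀ z ∈ K, k * z * k⁻¹ ∈ K := fun k hk z hz =>
    ⟨mul_mem (mul_mem hk hz.1) (inv_mem hk), fun y => by
      rw [ap_mul, ap_mul, hslice (inv_mem hk), hz.2, ← hslice (inv_mem hk), ap_ap_inv]⟩
  have hKU : ∀ w ∈ U, w ∈ K → w = 1 := by
    rintro _ ⟨s, rfl⟩ hw
    have hx0 : x ≠ 0 := fun h => hx (by rw [h, zero_dotProduct])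
    have h1 := hw.2 v
    simp only [φ, MonoidHom.mk'_apply, ap_kron, ap_one, rt_v] at h1
    have h3 := pt_inj_right e P hx0 h1
    rw [add_eq_left] at h3
    simp only [φ, MonoidHom.mk'_apply]
    rw [(smul_eq_zero.mp h3).resolve_right hτ.e_ne, rt_zero, kron_one']
  have hKp : ¬ p ∣ Nat.card K := by
    intro hd
    obtain ⟨k, hk⟩ := exists_prime_orderOf_dvd_card' (G := K) p hd
    set k' : C := ⟨(k : GL ι F), k.2.1⟩
    have hk'p : IsPGroup p (Subgroup.zpowers k') := by
      refine IsPGroup.of_card (n := 1) ?_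
      rw [Nat.card_zpowers, pow_one, ← hk, ← Subgroup.orderOf_coe k', ← Subgroup.orderOf_coe k]
    obtain ⟨S', hS'⟩ := hk'p.exists_le_sylow
    obtain ⟨γ, hγ⟩ := MulAction.exists_smul_eq C S S'
    have h1 : k' ∈ (S' : Subgroup C) := hS' (Subgroup.mem_zpowers k')
    rw [← hγ, Sylow.coe_subgroup_smul, Subgroup.mem_pointwise_smul_iff_inv_smul_mem, hSU,
      Subgroup.mem_subgroupOf] at h1
    have h3 : ((γ⁻¹ : C) : GL ι F) * (k : GL ι F) * ((γ⁻¹ : C) : GL ι F)⁻¹ = 1 := by
      refine hKU _ ?_ (hKn _ (γ⁻¹).2 _ k.2)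
      simpa [MulAut.conj_inv_apply, k'] using h1
    rw [mul_inv_eq_one, mul_eq_left] at h3
    have h4 : k = 1 := Subtype.ext h3
    rw [h4, orderOf_one] at hk
    exact (Fact.out : p.Prime).one_lt.ne hk
  have hUK : U ≤ Subgroup.normalizer (K : Set (GL ι F)) := fun w hw => by
    rw [Subgroup.mem_normalizer_iff]
    refine fun z => ⟨fun hz => hKn w (hUC hw) z hz, fun hz => ?_⟩
    have := hKn w⁻¹ (inv_mem (hUC hw)) _ hz
    simpa [mul_assoc] using this
  have hcent : ∀ s : F, s ≠ 0 → ∀ k ∈ K,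
      kron e P 1 (rt h2 hτ s) * k = k * kron e P 1 (rt h2 hτ s) → k ∈ TT e P :=
    fun s hs k hk hcomm => hT.unip_mem' hO hτ hs (hmemC.mp hk.1).1 (b := rt h2 hτ s)
      (Or.inr (by rw [← hcomm, mul_inv_cancel_right]))
  have hK : K ≤ TT e P := by
    rcases Nat.lt_or_ge p 5 with hp5 | hp5
    · have hp3 : p = 3 := by
        have := (Fact.out : p.Prime).two_le
        interval_cases p
        · exact absurd rfl hp2
        · rfl
        · exact absurd (Fact.out : (4 : ℕ).Prime) (by norm_num)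
      haveI : IsMulCommutative U := ⟨⟨fun ⟨_, a, ha⟩ ⟨_, b, hb⟩ => Subtype.ext (by
        subst ha hb; change φ a * φ b = φ b * φ a; rw [← map_mul, mul_comm, map_mul])⟩⟩
      have hinj : Function.Injective φ := by
        intro a b hab
        simp only [φ, MonoidHom.mk'_apply] at hab
        have h1 := (kron_inj h2 (one_mem _) (SO3_of_commutator (rt_mem h2 hτ _)) (one_mem _)
          (SO3_of_commutator (rt_mem h2 hτ _)) hab).2
        have h3 := congrArg (fun g => ap g v) h1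
        simp only [rt_v, add_right_inj] at h3
        exact Multiplicative.toAdd.injective (smul_left_injective F hτ.e_ne h3)
      have hcard : Nat.card U = Nat.card F := by
        rw [hUdef, ← Nat.card_congr (MonoidHom.ofInjective hinj).toEquiv]
        exact Nat.card_congr Multiplicative.toAdd
      have hnc : ¬ IsCyclic U := fun hcyc => by
        obtain ⟨w, hw⟩ := hcyc.exists_ofOrder_eq_natCard
        have h1 : orderOf w ∣ p := orderOf_dvd_of_pow_eq_one (Subtype.ext (by simpa using hUp w w.2))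
        have := Nat.le_of_dvd (Fact.out : p.Prime).pos h1
        rw [hw, hcard] at this
        have := hT.five
        omega
      obtain ⟨j, hj⟩ := hUpg.exists_card_eq
      refine CfsgLib.CoprimeAction.le_of_centralizers hnc hUK
        (hj ▸ ((Fact.out : p.Prime).coprime_iff_not_dvd.mpr hKp).pow_left j) ?_
      rintro _ ⟨s, rfl⟩ hs1 k ⟨hk, hkc⟩
      refine hcent (Multiplicative.toAdd s) (fun h0 => hs1 ?_) k hk ?_
      · simp [φ, h0, rt_zero, kron_one']
      · exact (Subgroup.mem_centralizer_singleton_iff.mp hkc).symm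
    · haveI : Nonempty ι := ⟨e.symm (0, 0)⟩
      intro k hk
      refine hcent 1 one_ne_zero k hk (commute_of_cube hp5 hKp (hUK ⟨Multiplicative.ofAdd 1, rfl⟩) ?_
        (hT.cube_kron hτ 1) hk)
      exact hUp _ ⟨Multiplicative.ofAdd 1, rfl⟩
  -- conclusion
  have hgC : g ∈ C := hmemC.mpr ⟨hg, hc⟩
  set w := φ (Multiplicative.ofAdd 1) with hw
  set c' := g * w * g⁻¹ with hc'
  have hc'C : c' ∈ C := mul_mem (mul_mem hgC (hUC ⟨_, rfl⟩)) (inv_mem hgC)
  have hgI := Orth.omegaGL_le (hO.le hg)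
  set B : (Fin 3 → F) →ₗ[F] (Fin 3 → F) :=
    (x ⬝ᵥ x)⁻¹ • (hT.L x).comp ((apEquiv g).toLinearMap.comp (ptr e P x)) with hBdef
  have hgB : ∀ y, ap g (pt e P x y) = pt e P x (B y) := fun y => hslice hgC y
  have hBiso : ∀ y y', B y ⬝ᵥ B y' = y ⬝ᵥ y' := fun y y' => by
    have h1 := Orth.polar_ap hgI (pt e P x y) (pt e P x y')
    rw [hgB, hgB, hT.polar_pt, hT.polar_pt] at h1
    exact mul_left_cancel₀ hx (mul_left_cancel₀ hT.c_ne h1)
  have hBi : Function.Injective B := fun y y' h => dotProduct_eq _ _ fun z => by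
    rw [← hBiso y z, ← hBiso y' z, h]
  let b : GL (Fin 3) F := ofEquiv (LinearEquiv.ofInjectiveEndo B hBi)
  have hb : ∀ y, ap b y = B y := fun y => by simp [b]
  have hbO : b ∈ O3 F := mem_O3.mpr fun y y' => by rw [hb, hb, hBiso]
  set h' := kron e P (1 : GL (Fin 3) F) (b * rt h2 hτ 1 * b⁻¹)
  have hh'M : h' ∈ M := hO.kron_mem hT (one_mem _) (commutator_conj hbO (rt_mem h2 hτ 1))
  have hh'C : h' ∈ C := hmemC.mpr ⟨hh'M, by simp [h', ht', ← kron_mul']⟩
  have hd : h'⁻¹ * c' ∈ K := by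
    refine ⟨mul_mem (inv_mem hh'C) hc'C, fun y => ap_injective h' ?_⟩
    rw [← ap_mul, mul_inv_cancel_left]
    obtain ⟨y', rfl⟩ : ∃ y', B y' = y := LinearMap.injective_iff_surjective.mp hBi y
    rw [hc', ap_mul, ap_mul, ← hgB, ap_inv_ap, hw]
    simp only [φ, MonoidHom.mk'_apply, toAdd_ofAdd, ap_kron, ap_one, hgB, h', ap_mul]
    rw [← hb y', ap_inv_ap, hb]
  have hcT : c' ∈ TT e P := by
    have := mul_mem (kron_mem_TT (e := e) (P := P) 1 (b * rt h2 hτ 1 * b⁻¹)) (hK hd)
    simpa [h'] using this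
  have hc'p : c' ^ p ^ 1 = 1 := by
    rw [pow_one, hc', conj_pow, hUp _ ⟨_, rfl⟩, mul_one, mul_inv_cancel]
  obtain ⟨b'', -, -, hb''⟩ := hT.p_commute hp2 hcT (hO.le (hmemC.mp hc'C).1) hx (hmemC.mp hc'C).2
    hc'p
  refine hT.unip_mem' hO hτ one_ne_zero hg (b := b'') (Or.inr ?_)
  rw [← hb'']
  rfl

end Data

end CfsgLib.Geometric.TSquare
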