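import Cfsg.Agent.Lib.Geometric.Orth.TensorSquare.Centraliser

/-!
An element of an overgroup conjugating a factorwise half-turn about a vector of square norm into
the stabiliser lies in the stabiliser.
-/

set_option autoImplicit false
set_option linter.unusedSectionVars false
set_option linter.unusedSimpArgs false
set_option linter.style.haveILetI false

namespace CfsgLib.Geometric.TSquare

open Matrix Tensor QuadraticMap OrthTensor

variable {ι : Type} [Fintype ι] [DecidableEq ι] {F : Type*} [Field F] [Finite F]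
variable {e : ι ≃ Fin 3 × Fin 3} {P : GL ι F} {Q : QuadraticForm F (ι → F)} {c : F}

lemma trace_one_three : ((1 : GL (Fin 3) F) : Matrix (Fin 3) (Fin 3) F).trace = 3 := by
  simp [Units.val_one, Matrix.trace_one]

lemma kron_ht_sq (x y : Fin 3 → F) :
    kron e P (ht x) (ht y) * kron e P (ht x) (ht y) = 1 := by
  rw [← kron_mul', ht_mul_self, ht_mul_self, kron_one']

lemma kron_ht_one_sq (x : Fin 3 → F) :
    kron e P (ht x) (1 : GL (Fin 3) F) * kron e P (ht x) 1 = 1 := by
  rw [← kron_mul', ht_mul_self, one_mul, kron_one']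

namespace Data

variable (hT : Data Q e P c) {M : Subgroup (GL ι F)}
include hT

lemma ht_one_omega {x : Fin 3 → F} (hx : x ⬝ᵥ x ≠ 0) (hsq : IsSquare (x ⬝ᵥ x)) :
    kron e P (ht x) 1 ∈ Cfsg.Geo.omegaGL (⇑Q) :=
  hT.kron_omega (ht_mem_commutator hT.two hx hsq) (one_mem _)

lemma ht_ht_omega {x y : Fin 3 → F} (hx : x ⬝ᵥ x ≠ 0) (hxs : IsSquare (x ⬝ᵥ x))
    (hy : y ⬝ᵥ y ≠ 0) (hys : IsSquare (y ⬝ᵥ y)) :
    kron e P (ht x) (ht y) ∈ Cfsg.Geo.omegaGL (⇑Q) :=
  hT.kron_omega (ht_mem_commutator hT.two hx hxs) (ht_mem_commutator hT.two hy hys)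

/-- The factors of an involution acting factorwise. -/
lemma invol_cases {a b : GL (Fin 3) F} (ha : a ∈ SO3 F) (hb : b ∈ SO3 F)
    (h : kron e P a b * kron e P a b = 1) (h1 : kron e P a b ≠ 1) :
    (∃ x, x ⬝ᵥ x ≠ 0 ∧ a = ht x ∧ b = 1) ∨ (∃ y, y ⬝ᵥ y ≠ 0 ∧ a = 1 ∧ b = ht y) ∨
      ∃ x y, x ⬝ᵥ x ≠ 0 ∧ y ⬝ᵥ y ≠ 0 ∧ a = ht x ∧ b = ht y := by
  have h2 := hT.two
  rw [← kron_mul'] at h
  obtain ⟨haa, hbb⟩ := kron_eq_one h2 (mul_mem ha ha) (mul_mem hb hb) h
  rcases eq_ht_of_sq h2 (mem_SO3.mp ha).1 (mem_SO3.mp ha).2 haa with rfl | ⟨x, hx, rfl⟩ <;>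
    rcases eq_ht_of_sq h2 (mem_SO3.mp hb).1 (mem_SO3.mp hb).2 hbb with rfl | ⟨y, hy, rfl⟩
  · exact absurd kron_one' h1
  · exact Or.inr (Or.inl ⟨y, hy, rfl, rfl⟩)
  · exact Or.inl ⟨x, hx, rfl, rfl⟩
  · exact Or.inr (Or.inr ⟨x, y, hx, hy, rfl, rfl⟩)

lemma two_two : (4 : F) ≠ 0 := by
  have : (4 : F) = 2 * 2 := by norm_num
  rw [this]; exact mul_ne_zero hT.two hT.two

/-- The centraliser of a half-turn of the second factor. -/
lemma root_cent' (hO : hT.Over M) {x : Fin 3 → F} (hx : x ⬝ᵥ x ≠ 0) {g : GL ι F} (hg : g ∈ M)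
    (hc : g * kron e P 1 (ht x) = kron e P 1 (ht x) * g) : g ∈ TT e P := by
  have hs : ∀ g : GL ι F, sw e P * (sw e P * g * sw e P) * sw e P = g := fun g => by
    simp [mul_assoc, sw_mul_self, ← mul_assoc (sw e P) (sw e P)]
  have h1 : sw e P * g * sw e P ∈ TT e P := by
    refine hT.root_cent (hO.flip hT) hx (hT.mem_flip.mpr (by rwa [hs])) ?_
    rw [← conj_sw_kron (1 : GL (Fin 3) F) (ht x)]
    have e1 : ∀ a b : GL ι F, sw e P * a * sw e P * (sw e P * b * sw e P) =
        sw e P * (a * b) * sw e P := fun a b => by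
      simp [mul_assoc, sw_mul_self, ← mul_assoc (sw e P) (sw e P)]
    rw [e1, e1, hc]
  have h3 := mul_mem (mul_mem (sw_mem_TT (e := e) (P := P)) h1) sw_mem_TT
  rwa [hs] at h3

/-- An element conjugating a half-turn about a vector of square norm into the stabiliser. -/
theorem conj_root (hO : hT.Over M) {x : Fin 3 → F} (hx : x ⬝ᵥ x ≠ 0) (hxs : IsSquare (x ⬝ᵥ x))
    {g : GL ι F} (hg : g ∈ M) (h : g * kron e P (ht x) 1 * g⁻¹ ∈ TT e P) : g ∈ TT e P := by
  have h2 := hT.two
  have := Fintype.ofFinite F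
  obtain ⟨p, hcharp⟩ := CharP.exists F
  haveI := Fact.mk (CharP.char_is_prime F p)
  have hp2 : p ≠ 2 := fun h => h2 (by subst h; exact_mod_cast CharP.cast_eq_zero F 2)
  obtain ⟨u, f, v, hτ⟩ := exists_trip' (F := F) h2
  set t := kron e P (ht x) (1 : GL (Fin 3) F) with ht'
  have htM : t ∈ M := hO.mem _ (kron_mem_TT _ _) (hT.ht_one_omega hx hxs)
  set t' := g * t * g⁻¹ with ht''
  have ht'M : t' ∈ M := mul_mem (mul_mem hg htM) (inv_mem hg)
  have ht'2 : t' * t' = 1 := by
    rw [ht'', conj_mul, kron_ht_one_sq, mul_one, mul_inv_cancel]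
  have ht'1 : t' ≠ 1 := fun h0 => by
    rw [ht'', mul_inv_eq_one, mul_eq_left] at h0
    exact ht_ne_one h2 x (kron_eq_one h2 (ht_mem_SO3 h2 hx) (one_mem _) h0).1
  have htr : ((t' : GL ι F) : Matrix ι ι F).trace = -3 := by
    rw [ht'', Units.val_mul, Units.val_mul, Matrix.trace_units_conj, ht', trace_kron, trace_ht hx,
      trace_one_three]
    ring
  set w := kron e P 1 (rt h2 hτ 1) with hw
  have hwM : w ∈ M := hO.kron_mem hT (one_mem _) (rt_mem h2 hτ 1)
  have hwt : w * t = t * w := by simp [hw, ht', ← kron_mul']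
  have hw' : g * w * g⁻¹ * t' = t' * (g * w * g⁻¹) := by
    rw [ht'', conj_mul, conj_mul, hwt]
  have hw'M : g * w * g⁻¹ ∈ M := mul_mem (mul_mem hg hwM) (inv_mem hg)
  have hwp : ∀ {a : GL (Fin 3) F} (_ : a ^ p = 1), (kron e P 1 a) ^ p ^ 1 = 1 := fun {a} ha => by
    rw [pow_one, kron_pow', one_pow, ha, kron_one']
  have hrtp : ∀ {u f v : Fin 3 → F} (hτ : Trip u f v) (s : F), rt h2 hτ s ^ p = 1 :=
    fun hτ s => by rw [rt_pow, CharP.cast_eq_zero, zero_mul, rt_zero]
  have hw'p : (g * w * g⁻¹) ^ p ^ 1 = 1 := by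
    rw [conj_pow, hw, hwp (hrtp hτ 1), mul_one, mul_inv_cancel]
  rcases hT.normal_form h (hO.le ht'M) with ⟨a, b, ha, hb, hab⟩ | ⟨a, b, ha, hb, hab⟩
  · rw [hab] at ht'2 ht'1 htr hw'
    rcases hT.invol_cases ha hb ht'2 ht'1 with ⟨y, hy, rfl, rfl⟩ | ⟨y, hy, rfl, rfl⟩ |
      ⟨y, z, hy, hz, rfl, rfl⟩
    · have hwT := hT.root_cent hO hy hw'M hw'
      obtain ⟨b', -, -, hb'⟩ := hT.p_commute hp2 hwT (hO.le hw'M) hy hw' hw'p
      exact hT.unip_mem' hO hτ one_ne_zero hg (b := b') (Or.inr hb')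
    · have hwT := hT.root_cent' hO hy hw'M hw'
      set n := sw e P * (g * w * g⁻¹) * sw e P with hn
      have hnc : n * kron e P (ht y) 1 = kron e P (ht y) 1 * n := by
        rw [hn, ← conj_sw_kron (1 : GL (Fin 3) F) (ht y)]
        have e1 : ∀ a b : GL ι F, sw e P * a * sw e P * (sw e P * b * sw e P) =
            sw e P * (a * b) * sw e P := fun a b => by
          simp [mul_assoc, sw_mul_self, ← mul_assoc (sw e P) (sw e P)]
        rw [e1, e1, hw']
      have hnp : n ^ p ^ 1 = 1 := by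
        rw [hn]
        conv_lhs => arg 1; arg 2; rw [← sw_inv]
        rw [conj_pow, hw'p, mul_one, mul_inv_cancel]
      have hnΩ : n ∈ Cfsg.Geo.omegaGL (⇑Q) := by
        have := hT.omega_conj hT.sw_isometry (hO.le hw'M)
        rwa [sw_inv] at this
      obtain ⟨b', -, -, hb'⟩ := hT.p_commute hp2
        (mul_mem (mul_mem sw_mem_TT hwT) sw_mem_TT) hnΩ hy hnc hnp
      refine hT.unip_mem' hO hτ one_ne_zero hg (b := b') (Or.inl ?_)
      rw [← conj_sw_kron (1 : GL (Fin 3) F) b', ← hb']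
      simp [hw, mul_assoc, sw_mul_self, ← mul_assoc (sw e P) (sw e P)]
    · exfalso
      rw [trace_kron, trace_ht hy, trace_ht hz] at htr
      exact hT.two_two (by linear_combination htr)
  · exfalso
    rw [hab] at ht'2
    have hsq : kron e P (a * b) (b * a) = 1 := by
      rw [kron_mul', ← conj_sw_kron a b, ← ht'2]
      simp only [mul_assoc]
    -- elements of the diagonal type centralising `t'`
    have hdiag : ∀ {u f v : Fin 3 → F} (hτ : Trip u f v),
        ∃ b', b' ∈ SO3 F ∧ b' ^ p ^ 1 = 1 ∧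
          g⁻¹ * kron e P (a * rt h2 hτ 1 * a⁻¹) (rt h2 hτ 1) * g = kron e P 1 b' := by
      intro u f v hτ
      set r := rt h2 hτ 1
      set h' := kron e P (a * r * a⁻¹) r
      have hh'M : h' ∈ M :=
        hO.kron_mem hT (commutator_conj (mem_SO3.mp ha).1 (rt_mem h2 hτ 1)) (rt_mem h2 hτ 1)
      have hc' : t' * h' * t'⁻¹ = h' := by
        rw [hab, _root_.mul_inv_rev, mul_assoc (kron e P a b), sw_inv,
          mul_assoc (kron e P a b) (sw e P * h') (sw e P * _), ← mul_assoc (sw e P * h'),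
          conj_sw_kron, kron_inv, ← mul_assoc, ← kron_mul', ← kron_mul']
        have h3 : kron e P (a * b) (b * a) * kron e P 1 r * (kron e P (a * b) (b * a))⁻¹ =
            kron e P 1 r := by rw [hsq, one_mul, inv_one, mul_one]
        rw [kron_inv, ← kron_mul', ← kron_mul', mul_one, mul_inv_cancel] at h3
        calc kron e P (a * r * a⁻¹) (b * (a * r * a⁻¹) * b⁻¹)
            = kron e P (a * r * a⁻¹) 1 * kron e P 1 (b * a * r * (b * a)⁻¹) := by
              rw [← kron_mul', one_mul, mul_one, _root_.mul_inv_rev]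
              simp only [mul_assoc]
          _ = h' := by rw [h3, ← kron_mul', one_mul, mul_one]
      set n := g⁻¹ * h' * g
      have hnM : n ∈ M := mul_mem (mul_mem (inv_mem hg) hh'M) hg
      have hnc : n * t = t * n := by
        have h3 : t' * h' = h' * t' := by rw [← mul_inv_eq_iff_eq_mul]; exact hc'
        rw [ht''] at h3
        calc n * t = g⁻¹ * (h' * (g * t * g⁻¹)) * g := by simp only [n]; group
          _ = g⁻¹ * (g * t * g⁻¹ * h') * g := by rw [h3]
          _ = t * n := by simp only [n]; group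
      have hnp : n ^ p ^ 1 = 1 := by
        have : h' ^ p = 1 := by
          rw [kron_pow', hrtp hτ 1, conj_pow, hrtp hτ 1, mul_one, mul_inv_cancel, kron_one']
        rw [pow_one]
        simp only [n]
        nth_rw 2 [← inv_inv g]
        rw [conj_pow, this, mul_one, mul_inv_cancel]
      obtain ⟨b', hb', hbp, hnb⟩ := hT.p_commute hp2 (hT.root_cent hO hx hnM hnc) (hO.le hnM) hx hnc hnp
      exact ⟨b', hb', hbp, hnb⟩
    obtain ⟨b1, hb1, hb1p, he1⟩ := hdiag hτ
    obtain ⟨b2, hb2, hb2p, he2⟩ := hdiag hτ.swap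
    have hne1 : b1 ≠ 1 := fun h0 => by
      rw [h0, kron_one', mul_assoc, inv_mul_eq_one, right_eq_mul] at he1
      have h3 := (kron_eq_one h2 (mem_SO3.mpr ⟨mul_mem (mul_mem (mem_SO3.mp ha).1
        (rt_mem_O3 h2 hτ 1)) (inv_mem (mem_SO3.mp ha).1), ?_⟩)
        (SO3_of_commutator (rt_mem h2 hτ 1)) he1).2
      · exact one_ne_zero (rt_inj h2 hτ h3)
      · exact det_eq_one_of_mem_commutator (commutator_conj (mem_SO3.mp ha).1 (rt_mem h2 hτ 1))
    -- a vector fixed by the diagonal elements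
    set z1 : ι → F := ∑ i, pt e P (Pi.single i 1) (Pi.single i 1) with hz1
    set ζ := ap (kron e P a 1) z1 with hζ
    have hz1fix : ∀ r ∈ O3 F, ap (kron e P r r) z1 = z1 := by
      intro r hr
      refine sub_eq_zero.mp (hT.nondeg _ fun Y => ?_)
      rw [← polar_comm]
      have hl : (polarBilin Q).flip (ap (kron e P r r) z1) = (polarBilin Q).flip z1 :=
        ext_pt e P fun X Y => by
          simp only [LinearMap.flip_apply, polarBilin_apply_apply]
          rw [← Orth.polar_ap (inv_mem (hT.kron_isometry hr hr)) (pt e P X Y)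
            (ap (kron e P r r) z1), ap_inv_ap, kron_inv, ap_kron, hz1,
            show ∀ S : Fin 3 → ι → F, ∀ Z, polar Q Z (∑ i, S i) = ∑ i, polar Q Z (S i) from
              fun S Z => map_sum ((polarBilin Q) Z) S _]
          rw [show ∀ S : Fin 3 → ι → F, ∀ Z, polar Q Z (∑ i, S i) = ∑ i, polar Q Z (S i) from
              fun S Z => map_sum ((polarBilin Q) Z) S _]
          simp only [hT.polar_pt, dotProduct_single, mul_one, ← Finset.mul_sum]
          congr 1
          exact O3_dot (inv_mem hr) X Y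
      have := LinearMap.congr_fun hl Y
      simp only [LinearMap.flip_apply, polarBilin_apply_apply] at this
      rw [polar_sub_right, this, sub_self]
    have hfix : ∀ r ∈ O3 F, ap (kron e P (a * r * a⁻¹) r) ζ = ζ := by
      intro r hr
      rw [hζ, ← ap_mul, ← kron_mul', mul_one, inv_mul_cancel_right]
      conv_lhs => rw [show kron e P (a * r) r = kron e P a 1 * kron e P r r by
        rw [← kron_mul', one_mul]]
      rw [ap_mul, hz1fix r hr]
    set ξ := ap g⁻¹ ζ
    have hξ : ∀ {r b' : GL (Fin 3) F}, r ∈ O3 F →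
        g⁻¹ * kron e P (a * r * a⁻¹) r * g = kron e P 1 b' →
        ∀ z, ap b' (hT.L z ξ) = hT.L z ξ := by
      intro r b' hr he z
      rw [← hT.L_kron_right, ← he, ap_mul, ap_mul, ap_ap_inv, hfix r hr]
    have hz1ne : z1 ≠ 0 := fun h0 => by
      have h3 : polar Q (pt e P (Pi.single 0 1) (Pi.single 0 1)) z1 = 0 := by
        rw [h0]; exact polar_zero_right _ _
      rw [hz1, show ∀ S : Fin 3 → ι → F, ∀ Z, polar Q Z (∑ i, S i) = ∑ i, polar Q Z (S i) from
              fun S Z => map_sum ((polarBilin Q) Z) S _, Fin.sum_univ_three] at h3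
      simp only [hT.polar_pt, dotProduct_single, Pi.single_apply] at h3
      simp at h3
      exact hT.c_ne h3
    obtain ⟨z, hz⟩ : ∃ z, hT.L z ξ ≠ 0 := by
      by_contra hc'
      push Not at hc'
      refine ap_ne_zero g⁻¹ (ap_ne_zero (kron e P a 1) hz1ne) ?_
      change ξ = 0
      rw [hT.decompX hτ ξ, hc', hc', hc']
      simp [pt_zero_right]
    set z0 := hT.L z ξ
    have f1 := hξ (rt_mem_O3 h2 hτ 1) he1 z
    have f2 := hξ (rt_mem_O3 h2 hτ.swap 1) he2 z
    by_cases hzz : z0 ⬝ᵥ z0 = 0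
    · obtain ⟨f', v', hσ⟩ := exists_trip h2 hz hzz
      obtain ⟨s1, hs1⟩ := eq_rt_of_fix h2 hσ (mem_SO3.mp hb1).1 (mem_SO3.mp hb1).2 f1
      obtain ⟨s2, hs2⟩ := eq_rt_of_fix h2 hσ (mem_SO3.mp hb2).1 (mem_SO3.mp hb2).2 f2
      have hcomm : b1 * b2 = b2 * b1 := by rw [hs1, hs2, rt_mul, rt_mul, add_comm]
      set r1 := rt h2 hτ 1
      set r2 := rt h2 hτ.swap 1
      have hK : kron e P (a * r1 * a⁻¹ * (a * r2 * a⁻¹)) (r1 * r2) =
          kron e P (a * r2 * a⁻¹ * (a * r1 * a⁻¹)) (r2 * r1) := by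
        have e1 : kron e P (a * r1 * a⁻¹) r1 = g * kron e P 1 b1 * g⁻¹ := by rw [← he1]; group
        have e2 : kron e P (a * r2 * a⁻¹) r2 = g * kron e P 1 b2 * g⁻¹ := by rw [← he2]; group
        rw [kron_mul', kron_mul', e1, e2, conj_mul, conj_mul, ← kron_mul', ← kron_mul', hcomm]
      have hr1 := SO3_of_commutator (rt_mem h2 hτ 1)
      have hr2 := SO3_of_commutator (rt_mem h2 hτ.swap 1)
      have h4 := (kron_inj h2
        (mul_mem (mul_mem (mul_mem ha hr1) (inv_mem ha)) (mul_mem (mul_mem ha hr2) (inv_mem ha)))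
        (mul_mem hr1 hr2)
        (mul_mem (mul_mem (mul_mem ha hr2) (inv_mem ha)) (mul_mem (mul_mem ha hr1) (inv_mem ha)))
        (mul_mem hr2 hr1) hK).2
      have h5 := congrArg (fun k => ap k u ⬝ᵥ v) h4
      simp only [r1, r2, ap_mul, rt_e, rt_f, ap_add, ap_smul, ap_ht, rt_v,
        show ap (rt h2 hτ 1) (-v) = -(v + (1 : F) • u) by
          rw [← neg_one_smul F v, ap_smul, rt_v, neg_one_smul]] at h5
      simp only [add_dotProduct, smul_dotProduct, neg_dotProduct, smul_eq_mul, hτ.ev, hτ.fv,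
        hτ.vv] at h5
      have h6 : (2 : F)⁻¹ = 0 := by linear_combination -h5
      exact h2 (inv_eq_zero.mp h6)
    · exact hne1 (eq_one_of_line h2 (mem_SO3.mp hb1).1 hp2 hb1p hzz (l := 1) (by rw [f1, one_smul]))

end Data

end CfsgLib.Geometric.TSquare
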