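import Cfsg.Agent.Lib.Geometric.OrthTensorMax.Alg
import Mathlib.LinearAlgebra.CrossProduct

/-!
The dot product in dimension three over a field of odd characteristic: cross products, half-turns,
Siegel elements, and isometries of odd order fixing a point.
-/

set_option autoImplicit false
set_option linter.unusedSectionVars false

namespace CfsgLib.Geometric.TSquare

open Matrix OrthTensor
open scoped commutatorElement

variable {F : Type*} [Field F]

/-- The dot product of `F^3`. -/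
abbrev dp (F : Type*) [Field F] : (Fin 3 → F) → (Fin 3 → F) → F := fun x y => x ⬝ᵥ y

/-- The isometries of the dot product. -/
abbrev O3 (F : Type*) [Field F] : Subgroup (GL (Fin 3) F) := isom (dp F)

lemma sym (h2 : (2 : F) ≠ 0) : SymForm (dp F) :=
  ⟨h2, ⟨⟨fun x y v => add_dotProduct x y v, fun c x v => by simp [dp],
    fun v x y => dotProduct_add v x y, fun c v x => by simp [dp]⟩,
    fun u v => dotProduct_comm u v, fun v hv => by
      obtain ⟨i, hi⟩ := Function.ne_iff.mp hv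
      exact ⟨⟨Pi.single i 1, by simpa [dp] using hi⟩, ⟨Pi.single i 1, by simpa [dp] using hi⟩⟩⟩⟩

lemma mem_O3 {a : GL (Fin 3) F} :
    a ∈ O3 F ↔ ∀ x y, ap a x ⬝ᵥ ap a y = x ⬝ᵥ y := mem_isom_iff

lemma O3_dot {a : GL (Fin 3) F} (ha : a ∈ O3 F) (x y : Fin 3 → F) :
    ap a x ⬝ᵥ ap a y = x ⬝ᵥ y := mem_O3.mp ha x y

lemma O3_dot_left {a : GL (Fin 3) F} (ha : a ∈ O3 F) (x y : Fin 3 → F) :
    ap a x ⬝ᵥ y = x ⬝ᵥ ap a⁻¹ y := by
  conv_lhs => rw [← ap_ap_inv a y, O3_dot ha]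

/-- The triple product expands a double cross product. -/
lemma cross_cross' (u v w : Fin 3 → F) :
    u ⨯₃ v ⨯₃ w = (u ⬝ᵥ w) • v - (v ⬝ᵥ w) • u := by
  ext i
  fin_cases i <;> simp [cross_apply, dotProduct, Fin.sum_univ_three] <;> ring

lemma dot_cross_left (u v : Fin 3 → F) : u ⨯₃ v ⬝ᵥ u = 0 := by
  rw [dotProduct_comm, dot_self_cross]

lemma dot_cross_right (u v : Fin 3 → F) : u ⨯₃ v ⬝ᵥ v = 0 := by
  rw [dotProduct_comm, dot_cross_self]

/-- A vector orthogonal to `a`, `b` and their cross product vanishes if the latter is anisotropic. -/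
lemma eq_zero_of_orth {a b X : Fin 3 → F} (hc : a ⨯₃ b ⬝ᵥ a ⨯₃ b ≠ 0) (ha : a ⬝ᵥ X = 0)
    (hb : b ⬝ᵥ X = 0) (hn : a ⨯₃ b ⬝ᵥ X = 0) : X = 0 := by
  set n := a ⨯₃ b with hn'
  have h1 : n ⨯₃ X = 0 := by rw [hn', cross_cross', ha, hb]; simp
  have h2 := cross_cross' n X n
  rw [h1, dotProduct_comm X n, hn] at h2
  rw [map_zero, LinearMap.zero_apply, zero_smul, sub_zero] at h2
  exact (smul_eq_zero.mp h2.symm).resolve_left hc

/-- A hyperbolic pair and the cross product of its members. -/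
structure Trip (e f v : Fin 3 → F) : Prop where
  ee : e ⬝ᵥ e = 0
  ff : f ⬝ᵥ f = 0
  ef : e ⬝ᵥ f = 1
  hv : v = e ⨯₃ f

namespace Trip

variable {e f v : Fin 3 → F} (hτ : Trip e f v)
include hτ

lemma fe : f ⬝ᵥ e = 1 := by rw [dotProduct_comm, hτ.ef]
lemma ve : v ⬝ᵥ e = 0 := by rw [hτ.hv, dot_cross_left]
lemma vf : v ⬝ᵥ f = 0 := by rw [hτ.hv, dot_cross_right]
lemma ev : e ⬝ᵥ v = 0 := by rw [dotProduct_comm, hτ.ve]
lemma fv : f ⬝ᵥ v = 0 := by rw [dotProduct_comm, hτ.vf]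
lemma vv : v ⬝ᵥ v = -1 := by rw [hτ.hv, cross_dot_cross, hτ.ee, hτ.ef, hτ.fe]; ring
lemma vv_ne : v ⬝ᵥ v ≠ 0 := by rw [hτ.vv]; simp
lemma e_ne : e ≠ 0 := fun h => one_ne_zero (α := F) (by rw [← hτ.ef, h, zero_dotProduct])
lemma f_ne : f ≠ 0 := fun h => one_ne_zero (α := F) (by rw [← hτ.ef, h, dotProduct_zero])
lemma v_ne : v ≠ 0 := fun h => hτ.vv_ne (by rw [h, zero_dotProduct])

lemma swap : Trip f e (-v) :=
  ⟨hτ.ff, hτ.ee, hτ.fe, by rw [hτ.hv, cross_anticomm]⟩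

/-- Expansion along the triple. -/
lemma decomp (X : Fin 3 → F) : X = (X ⬝ᵥ f) • e + (X ⬝ᵥ e) • f - (X ⬝ᵥ v) • v := by
  refine sub_eq_zero.mp (eq_zero_of_orth (a := e) (b := f)
    (by rw [← hτ.hv]; exact hτ.vv_ne) ?_ ?_ ?_)
  · simp only [dotProduct_sub, dotProduct_add, dotProduct_smul, smul_eq_mul, hτ.ee, hτ.ef, hτ.ev,
      dotProduct_comm e X]
    ring
  · simp only [dotProduct_sub, dotProduct_add, dotProduct_smul, smul_eq_mul, hτ.ff, hτ.fe, hτ.fv,
      dotProduct_comm f X]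
    ring
  · rw [← hτ.hv]
    simp only [dotProduct_sub, dotProduct_add, dotProduct_smul, smul_eq_mul, hτ.ve, hτ.vf, hτ.vv,
      dotProduct_comm v X]
    ring

lemma ext_trip {M : Type*} [AddCommGroup M] [Module F M] {g h : (Fin 3 → F) →ₗ[F] M}
    (h1 : g e = h e) (h2 : g f = h f) (h3 : g v = h v) : g = h := by
  refine LinearMap.ext fun X => ?_
  conv_lhs => rw [hτ.decomp X]
  conv_rhs => rw [hτ.decomp X]
  simp [h1, h2, h3]

end Trip

/-- A singular vector lies in a triple. -/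
lemma exists_trip (h2 : (2 : F) ≠ 0) {e : Fin 3 → F} (he0 : e ≠ 0) (he : e ⬝ᵥ e = 0) :
    ∃ f v, Trip e f v := by
  obtain ⟨f, hf, hef⟩ := (sym h2).exists_hyp he he0
  exact ⟨f, _, he, hf, hef, rfl⟩

/-- There is a triple. -/
lemma exists_trip' [Finite F] (h2 : (2 : F) ≠ 0) :
    ∃ e f v : Fin 3 → F, Trip e f v := by
  obtain ⟨e, he0, he⟩ := (sym h2).exists_isotropic (by simp)
  obtain ⟨f, v, h⟩ := exists_trip h2 he0 he
  exact ⟨e, f, v, h⟩

/-- Orthogonal singular vectors are proportional. -/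
lemma prop_of_singular (h2 : (2 : F) ≠ 0) {e X : Fin 3 → F} (he0 : e ≠ 0) (he : e ⬝ᵥ e = 0)
    (hX : X ⬝ᵥ X = 0) (heX : e ⬝ᵥ X = 0) : ∃ t : F, X = t • e := by
  obtain ⟨f, v, hτ⟩ := exists_trip h2 he0 he
  refine ⟨X ⬝ᵥ f, ?_⟩
  have h := hτ.decomp X
  rw [dotProduct_comm X e, heX, zero_smul, add_zero] at h
  have h1 : X ⬝ᵥ v * (X ⬝ᵥ v) = 0 := by
    rw [h] at hX
    simpa [hτ.ee, hτ.ev, hτ.ve, hτ.vv] using hX
  rw [mul_self_eq_zero.mp h1, zero_smul, sub_zero] at h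
  exact h

/-- Expansion along an orthogonal pair of anisotropic vectors and their cross product. -/
lemma decomp_orth {a b : Fin 3 → F} (ha : a ⬝ᵥ a ≠ 0) (hb : b ⬝ᵥ b ≠ 0) (hab : a ⬝ᵥ b = 0)
    (X : Fin 3 → F) :
    X = (X ⬝ᵥ a / (a ⬝ᵥ a)) • a + (X ⬝ᵥ b / (b ⬝ᵥ b)) • b +
      (X ⬝ᵥ a ⨯₃ b / (a ⨯₃ b ⬝ᵥ a ⨯₃ b)) • (a ⨯₃ b) := by
  have hc : a ⨯₃ b ⬝ᵥ a ⨯₃ b ≠ 0 := by
    rw [cross_dot_cross, hab]
    simp [ha, hb]
  refine sub_eq_zero.mp (eq_zero_of_orth hc ?_ ?_ ?_)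
  · simp only [dotProduct_sub, dotProduct_add, dotProduct_smul, smul_eq_mul, hab, dot_self_cross,
      dotProduct_comm a X]
    rw [div_mul_cancel₀ _ ha]
    ring
  · simp only [dotProduct_sub, dotProduct_add, dotProduct_smul, smul_eq_mul, dot_cross_self,
      dotProduct_comm b X, dotProduct_comm b a, hab]
    rw [div_mul_cancel₀ _ hb]
    ring
  · simp only [dotProduct_sub, dotProduct_add, dotProduct_smul, smul_eq_mul, dot_cross_left,
      dot_cross_right, dotProduct_comm (a ⨯₃ b) X]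
    rw [div_mul_cancel₀ _ hc]
    ring

/-! ### Half-turns -/

/-- The map `X ↦ -X + (2 (X · x) / (x · x)) x`. -/
def htMap (x : Fin 3 → F) : (Fin 3 → F) →ₗ[F] (Fin 3 → F) where
  toFun X := -X + (2 * (X ⬝ᵥ x) / (x ⬝ᵥ x)) • x
  map_add' X Y := by rw [add_dotProduct, neg_add, mul_add, add_div, add_smul]; abel
  map_smul' t X := by
    simp only [smul_dotProduct, smul_eq_mul, RingHom.id_apply]
    module

lemma htMap_invol (x : Fin 3 → F) : (htMap x).comp (htMap x) = LinearMap.id := by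
  refine LinearMap.ext fun X => ?_
  simp only [LinearMap.comp_apply, LinearMap.id_apply]
  change -(-X + _) + _ = X
  by_cases hx : x ⬝ᵥ x = 0
  · simp [hx, htMap]
  · simp only [htMap, LinearMap.coe_mk, AddHom.coe_mk, add_dotProduct, neg_dotProduct,
      smul_dotProduct, smul_eq_mul]
    match_scalars <;> field_simp
    ring

/-- The half-turn about the line of `x`. -/
def ht (x : Fin 3 → F) : GL (Fin 3) F :=
  ofEquiv (LinearEquiv.ofLinearMap (htMap x) (htMap x) (htMap_invol x) (htMap_invol x))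

lemma ap_ht (x X : Fin 3 → F) : ap (ht x) X = -X + (2 * (X ⬝ᵥ x) / (x ⬝ᵥ x)) • x := by
  rw [ht, ap_ofEquiv]; rfl

lemma ht_mul_self (x : Fin 3 → F) : ht x * ht x = 1 := gl_ext fun X => by
  rw [ap_mul, ap_one, ht, ap_ofEquiv, ap_ofEquiv]
  exact LinearMap.congr_fun (htMap_invol x) X

lemma ht_inv (x : Fin 3 → F) : (ht x)⁻¹ = ht x := inv_eq_of_mul_eq_one_right (ht_mul_self x)

lemma ap_ht_self {x : Fin 3 → F} (hx : x ⬝ᵥ x ≠ 0) : ap (ht x) x = x := by
  rw [ap_ht, mul_div_assoc, div_self hx]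
  module

lemma ap_ht_perp {x X : Fin 3 → F} (h : X ⬝ᵥ x = 0) : ap (ht x) X = -X := by
  rw [ap_ht, h]; simp

lemma ht_mem (x : Fin 3 → F) : ht x ∈ O3 F := mem_O3.mpr fun X Y => by
  rw [ap_ht, ap_ht]
  simp only [add_dotProduct, dotProduct_add, neg_dotProduct, dotProduct_neg, smul_dotProduct,
    dotProduct_smul, smul_eq_mul, dotProduct_comm x Y]
  by_cases hx : x ⬝ᵥ x = 0
  · simp [hx]
  · field_simp
    ring

lemma det_ht (h2 : (2 : F) ≠ 0) {x : Fin 3 → F} (hx : x ⬝ᵥ x ≠ 0) :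
    (ht x : Matrix (Fin 3) (Fin 3) F).det = 1 := by
  let n : GL (Fin 3) F := ofEquiv (LinearEquiv.neg F)
  have hn : (n : Matrix (Fin 3) (Fin 3) F) = -1 := Matrix.ext_of_mulVec_single fun i => by
    change ap n _ = _
    rw [Matrix.neg_mulVec, Matrix.one_mulVec, ap_ofEquiv, LinearEquiv.neg_apply]
  have h := det_of_ap (n * ht x) x ((-(2 / (x ⬝ᵥ x))) • ((sym h2).fl x)) fun X => by
    rw [ap_mul, ap_ht]
    simp only [n, ap_ofEquiv, LinearEquiv.neg_apply, LinearMap.smul_apply, SymForm.fl_apply,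
      smul_eq_mul, neg_add, neg_neg, dp]
    module
  rw [Units.val_mul, hn, Matrix.det_mul, Matrix.det_neg, Fintype.card_fin, Matrix.det_one] at h
  simp only [LinearMap.smul_apply, SymForm.fl_apply, smul_eq_mul, dp] at h
  rw [neg_mul, div_mul_cancel₀ _ hx] at h
  linear_combination -h


lemma trace_ht {x : Fin 3 → F} (hx : x ⬝ᵥ x ≠ 0) :
    (ht x : Matrix (Fin 3) (Fin 3) F).trace = -1 := by
  have h : ∀ i, (ht x : Matrix (Fin 3) (Fin 3) F) i i = -1 + 2 * x i / (x ⬝ᵥ x) * x i := by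
    intro i
    have h := congrFun (ap_ht x (Pi.single i 1)) i
    simpa [ap, Matrix.mulVec_single_one, single_dotProduct] using h
  rw [Matrix.trace, Fin.sum_univ_three]
  simp only [Matrix.diag_apply, h]
  have e : x ⬝ᵥ x = x 0 * x 0 + x 1 * x 1 + x 2 * x 2 := by simp [dotProduct, Fin.sum_univ_three]
  field_simp
  rw [e]
  ring

lemma ht_conj {a : GL (Fin 3) F} (ha : a ∈ O3 F) (x : Fin 3 → F) :
    a * ht x * a⁻¹ = ht (ap a x) := by
  refine gl_ext fun X => ?_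
  rw [ap_mul, ap_mul, ap_ht, ap_ht, ap_add, ap_smul, O3_dot ha,
    show X ⬝ᵥ ap a x = ap a⁻¹ X ⬝ᵥ x by
      rw [O3_dot_left (inv_mem ha), inv_inv],
    show ap a (-ap a⁻¹ X) = -X by
      rw [← neg_one_smul F (ap a⁻¹ X), ap_smul, ap_ap_inv, neg_one_smul]]

lemma ht_smul {t : F} (ht0 : t ≠ 0) (x : Fin 3 → F) : ht (t • x) = ht x := by
  refine gl_ext fun X => ?_
  rw [ap_ht, ap_ht, smul_dotProduct, dotProduct_smul, dotProduct_smul, smul_eq_mul, smul_eq_mul,
    smul_eq_mul, smul_smul]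
  by_cases hx : x ⬝ᵥ x = 0
  · simp [hx]
  · match_scalars <;> field_simp

/-- Half-turns about orthogonal axes multiply to the half-turn about the third axis. -/
lemma ht_mul_ht {a b : Fin 3 → F} (ha : a ⬝ᵥ a ≠ 0) (hb : b ⬝ᵥ b ≠ 0) (hab : a ⬝ᵥ b = 0) :
    ht a * ht b = ht (a ⨯₃ b) := by
  have hba : b ⬝ᵥ a = 0 := by rw [dotProduct_comm, hab]
  refine gl_ext fun X => ?_
  conv_lhs => rw [decomp_orth ha hb hab X]
  conv_rhs => rw [decomp_orth ha hb hab X]
  have hc : a ⨯₃ b ⬝ᵥ a ⨯₃ b ≠ 0 := by rw [cross_dot_cross, hab]; simp [ha, hb]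
  have hn : ∀ (z : Fin 3 → F) (X : Fin 3 → F), ap (ht z) (-X) = -ap (ht z) X := fun z X => by
    rw [← neg_one_smul F X, ap_smul, neg_one_smul]
  simp only [ap_mul, ap_add, ap_smul, ap_ht_self ha, ap_ht_self hb, ap_ht_self hc,
    ap_ht_perp (dot_cross_left a b), ap_ht_perp (dot_cross_right a b), ap_ht_perp hab,
    ap_ht_perp hba, hn, ap_ht_perp (dot_self_cross a b), ap_ht_perp (dot_cross_self a b), neg_neg]

/-- A half-turn determines its axis. -/
lemma axis_unique (h2 : (2 : F) ≠ 0) {x y : Fin 3 → F} (hx : x ⬝ᵥ x ≠ 0) (hy : y ⬝ᵥ y ≠ 0)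
    (h : ht x = ht y) : ∃ t : F, t ≠ 0 ∧ y = t • x := by
  refine ⟨y ⬝ᵥ x / (x ⬝ᵥ x), ?_, ?_⟩
  · intro h0
    have hyx : y ⬝ᵥ x = 0 := (div_eq_zero_iff.mp h0).resolve_right hx
    have h1 := ap_ht_self hy
    rw [← h, ap_ht_perp hyx] at h1
    exact hy (by
      have : (2 : F) • y = 0 := by rw [two_smul]; nth_rw 1 [← h1]; simp
      rw [(smul_eq_zero.mp this).resolve_left h2, zero_dotProduct])
  · have h1 := ap_ht_self hy
    rw [← h, ap_ht] at h1
    have h3 : (2 : F) • y = (2 : F) • ((y ⬝ᵥ x / (x ⬝ᵥ x)) • x) := by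
      rw [two_smul]
      nth_rw 1 [← h1]
      rw [smul_smul, mul_div_assoc]
      abel
    exact smul_right_injective _ h2 h3

/-- Commuting half-turns have equal or orthogonal axes. -/
lemma orth_or_prop (h2 : (2 : F) ≠ 0) {x a : Fin 3 → F} (hx : x ⬝ᵥ x ≠ 0) (ha : a ⬝ᵥ a ≠ 0)
    (h : ht x * ht a = ht a * ht x) : x ⬝ᵥ a = 0 ∨ ∃ t : F, t ≠ 0 ∧ x = t • a := by
  have h1 : ap (ht a) x = ap (ht x) (ap (ht a) x) := by
    rw [← ap_mul, h, ap_mul, ap_ht_self hx]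
  by_cases hax : x ⬝ᵥ a = 0
  · exact Or.inl hax
  refine Or.inr ⟨x ⬝ᵥ a / (a ⬝ᵥ a), div_ne_zero hax ha, ?_⟩
  have hfix : ∀ X, ap (ht x) X = X → X = (X ⬝ᵥ x / (x ⬝ᵥ x)) • x := fun X hX => by
    refine smul_right_injective _ h2 ?_
    beta_reduce
    rw [ap_ht, mul_div_assoc, mul_smul] at hX
    rw [two_smul]
    nth_rw 1 [← hX]
    abel
  have h3 := hfix _ h1.symm
  rw [ap_ht] at h3
  set k := (-x + (2 * (x ⬝ᵥ a) / (a ⬝ᵥ a)) • a) ⬝ᵥ x / (x ⬝ᵥ x)
  set l := x ⬝ᵥ a / (a ⬝ᵥ a) with hl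
  have h4 : (2 * l) • a = (k + 1) • x := by
    rw [hl, ← mul_div_assoc, add_smul, one_smul, ← h3]; abel
  have hk : k + 1 ≠ 0 := fun h0 => by
    rw [h0, zero_smul] at h4
    exact mul_ne_zero h2 (div_ne_zero hax ha) ((smul_eq_zero.mp h4).resolve_right
      fun h => ha (by rw [h, zero_dotProduct]))
  have h5 : x = ((2 * l) / (k + 1)) • a := by
    rw [div_eq_inv_mul, mul_smul, h4, smul_smul, inv_mul_cancel₀ hk, one_smul]
  have h6 : l = (2 * l) / (k + 1) := by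
    conv_lhs => rw [hl, h5, smul_dotProduct, smul_eq_mul, mul_div_assoc, div_self ha, mul_one]
  rw [h6]
  exact h5

/-! ### Determinants and cross products of isometries -/

lemma transpose_mul_self {a : GL (Fin 3) F} (ha : a ∈ O3 F) :
    (a : Matrix (Fin 3) (Fin 3) F)ᵀ * (a : Matrix (Fin 3) (Fin 3) F) = 1 := by
  ext i j
  have h := O3_dot ha (Pi.single i 1) (Pi.single j 1)
  simp [ap, dotProduct, Pi.single_apply] at h
  simp [Matrix.mul_apply, Matrix.one_apply, h, eq_comm]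

lemma det_sq {a : GL (Fin 3) F} (ha : a ∈ O3 F) :
    (a : Matrix (Fin 3) (Fin 3) F).det * (a : Matrix (Fin 3) (Fin 3) F).det = 1 := by
  have h := congrArg Matrix.det (transpose_mul_self ha)
  rwa [Matrix.det_mul, Matrix.det_transpose, Matrix.det_one] at h

lemma det_eq_one_of_odd_pow {a : GL (Fin 3) F} (ha : a ∈ O3 F) {m : ℕ} (hm : Odd m)
    (h : a ^ m = 1) : (a : Matrix (Fin 3) (Fin 3) F).det = 1 := by
  obtain ⟨k, rfl⟩ := hm
  have h1 : (a : Matrix (Fin 3) (Fin 3) F).det ^ (2 * k + 1) = 1 := by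
    rw [← Matrix.det_pow, ← Units.val_pow_eq_pow_val, h, Units.val_one, Matrix.det_one]
  rwa [pow_succ, pow_mul, sq, det_sq ha, one_pow, one_mul] at h1

lemma det_eq_one_of_mem_commutator {a : GL (Fin 3) F} (ha : a ∈ ⁅O3 F, O3 F⁆) :
    (a : Matrix (Fin 3) (Fin 3) F).det = 1 := by
  have h : ⁅O3 F, O3 F⁆ ≤ (Matrix.GeneralLinearGroup.det (n := Fin 3) (R := F)).ker := by
    rw [Subgroup.commutator_le]
    intro x _ y _
    simp [MonoidHom.mem_ker, commutatorElement_def, mul_comm]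
  have h1 := MonoidHom.mem_ker.mp (h ha)
  rw [← coe_det_eq, h1, Units.val_one]

lemma det_rows {a : GL (Fin 3) F} (u w z : Fin 3 → F) :
    Matrix.det ![ap a u, ap a w, ap a z] =
      Matrix.det ![u, w, z] * (a : Matrix (Fin 3) (Fin 3) F).det := by
  have h : (Matrix.of ![ap a u, ap a w, ap a z]) =
      (Matrix.of ![u, w, z]) * (a : Matrix (Fin 3) (Fin 3) F)ᵀ := by
    ext i j
    fin_cases i <;> simp [Matrix.mul_apply, ap, Matrix.mulVec, dotProduct, mul_comm]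
  have h' := congrArg Matrix.det h
  rw [Matrix.det_mul, Matrix.det_transpose] at h'
  exact h'

/-- Rotations respect the cross product. -/
lemma ap_cross {a : GL (Fin 3) F} (ha : a ∈ O3 F) (hd : (a : Matrix (Fin 3) (Fin 3) F).det = 1)
    (u w : Fin 3 → F) : ap a (u ⨯₃ w) = ap a u ⨯₃ ap a w := by
  refine dotProduct_eq _ _ fun z => ?_
  rw [O3_dot_left ha, dotProduct_comm, triple_product_eq_det, dotProduct_comm,
    triple_product_eq_det]
  conv_rhs => rw [← ap_ap_inv a z, det_rows, hd, mul_one]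

/-- A rotation fixing an anisotropic vector and another vector orthogonal to it is trivial. -/
lemma eq_one_of_fix_two (h2 : (2 : F) ≠ 0) {a : GL (Fin 3) F} (ha : a ∈ O3 F)
    (hd : (a : Matrix (Fin 3) (Fin 3) F).det = 1) {x u : Fin 3 → F} (hx : x ⬝ᵥ x ≠ 0)
    (hax : ap a x = x) (hu0 : u ≠ 0) (hux : u ⬝ᵥ x = 0) (hau : ap a u = u) : a = 1 := by
  by_cases huu : u ⬝ᵥ u = 0
  · obtain ⟨f, v, hτ⟩ := exists_trip h2 hu0 huu
    have h1 : ap a (x ⨯₃ u) = x ⨯₃ u := by rw [ap_cross ha hd, hax, hau]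
    -- the difference `a X - X` is orthogonal to `u` and `x`
    refine gl_ext fun X => ?_
    rw [ap_one]
    have hperp : ∀ z, ap a z = z → (ap a X - X) ⬝ᵥ z = 0 := fun z hz => by
      rw [sub_dotProduct, ← O3_dot ha X z, hz, sub_self]
    set D := ap a X - X with hD
    obtain ⟨s, hs⟩ : ∃ s : F, D = s • u := by
      have hxu : x ⬝ᵥ u = 0 := by rw [dotProduct_comm, hux]
      have hx' := hτ.decomp x
      rw [hxu, zero_smul, add_zero] at hx'
      have hxv : x ⬝ᵥ v ≠ 0 := fun h0 => hx (by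
        rw [hx', h0]
        simp [huu])
      have hDu : D ⬝ᵥ u = 0 := hperp u hau
      have hD' := hτ.decomp D
      rw [hDu, zero_smul, add_zero] at hD'
      have h0 := hperp x hax
      rw [hx', hD'] at h0
      simp only [sub_dotProduct, smul_dotProduct, dotProduct_sub, dotProduct_smul, smul_eq_mul,
        huu, hτ.ev, hτ.ve, hτ.vv] at h0
      have h3 : D ⬝ᵥ v * x ⬝ᵥ v = 0 := by linear_combination -h0
      rw [(mul_eq_zero.mp h3).resolve_right hxv, zero_smul, sub_zero] at hD'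
      exact ⟨D ⬝ᵥ f, hD'⟩
    have hnorm := O3_dot ha X X
    rw [show ap a X = X + s • u by rw [← hs, hD]; abel, add_dotProduct, dotProduct_add,
      dotProduct_add, smul_dotProduct, smul_dotProduct, dotProduct_smul, dotProduct_smul, huu,
      dotProduct_comm u X] at hnorm
    have h3 : (2 * s) * (X ⬝ᵥ u) = 0 := by
      simp only [smul_eq_mul] at hnorm
      linear_combination hnorm
    rcases mul_eq_zero.mp h3 with h | h
    · rw [← sub_eq_zero, ← hD, hs, (mul_eq_zero.mp h).resolve_left h2, zero_smul]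
    · have hxu : x ⬝ᵥ u = 0 := by rw [dotProduct_comm, hux]
      have hx' := hτ.decomp x
      rw [hxu, zero_smul, add_zero] at hx'
      have hxv : x ⬝ᵥ v ≠ 0 := fun h0 => hx (by
        rw [hx', h0]
        simp [huu])
      have hav : ap a v = v := by
        have e1 : v = (x ⬝ᵥ v)⁻¹ • ((x ⬝ᵥ f) • u - x) := by
          rw [show (x ⬝ᵥ f) • u - x = (x ⬝ᵥ v) • v by
            nth_rw 2 [hx']; abel, smul_smul, inv_mul_cancel₀ hxv, one_smul]
        rw [e1, ap_smul, ap_sub, ap_smul, hau, hax]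
      conv_lhs => rw [hτ.decomp X, h, zero_smul, add_zero, ap_sub, ap_smul, ap_smul, hau, hav]
      conv_rhs => rw [hτ.decomp X, h, zero_smul, add_zero]
  · have hxu : x ⬝ᵥ u = 0 := by rw [dotProduct_comm, hux]
    have h1 : ap a (x ⨯₃ u) = x ⨯₃ u := by rw [ap_cross ha hd, hax, hau]
    refine gl_ext fun X => ?_
    rw [ap_one]
    conv_lhs => rw [decomp_orth hx huu hxu X, ap_add, ap_add, ap_smul, ap_smul, ap_smul, hax, hau,
      h1]
    exact (decomp_orth hx huu hxu X).symm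

/-- An involutory rotation is a half-turn. -/
lemma eq_ht_of_sq (h2 : (2 : F) ≠ 0) {a : GL (Fin 3) F} (ha : a ∈ O3 F)
    (hd : (a : Matrix (Fin 3) (Fin 3) F).det = 1) (h : a * a = 1) :
    a = 1 ∨ ∃ x : Fin 3 → F, x ⬝ᵥ x ≠ 0 ∧ a = ht x := by
  by_cases ha1 : a = 1
  · exact Or.inl ha1
  refine Or.inr ?_
  set A := (a : Matrix (Fin 3) (Fin 3) F)
  have hdet : (A - 1).det = 0 := by
    have e : (A - 1)ᵀ * A = -(A - 1) := by
      rw [Matrix.transpose_sub, Matrix.transpose_one, Matrix.sub_mul, transpose_mul_self ha,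
        Matrix.one_mul]
      abel
    have h3 := congrArg Matrix.det e
    rw [Matrix.det_mul, Matrix.det_transpose, hd, mul_one, Matrix.det_neg, Fintype.card_fin] at h3
    have h4 : (2 : F) * (A - 1).det = 0 := by linear_combination h3
    exact (mul_eq_zero.mp h4).resolve_left h2
  obtain ⟨z, hz0, hz⟩ := Matrix.exists_mulVec_eq_zero_iff.mpr hdet
  have haz : ap a z = z := by
    rw [Matrix.sub_mulVec, Matrix.one_mulVec, sub_eq_zero] at hz
    exact hz
  have hfix : ∀ y, ap a (y + ap a y) = y + ap a y := fun y => by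
    rw [ap_add, ← ap_mul, h, ap_one, add_comm]
  obtain ⟨x, hax, hx⟩ : ∃ x, ap a x = x ∧ x ⬝ᵥ x ≠ 0 := by
    by_cases hzz : z ⬝ᵥ z = 0
    swap
    · exact ⟨z, haz, hzz⟩
    obtain ⟨y, hy⟩ := (sym h2).exists_ne hz0
    have hzw : z ⬝ᵥ (y + ap a y) ≠ 0 := by
      intro h0
      rw [dotProduct_add] at h0
      nth_rw 2 [← haz] at h0
      rw [O3_dot ha] at h0
      exact mul_ne_zero h2 hy (by simp only [dp]; linear_combination h0)
    by_cases hww : (y + ap a y) ⬝ᵥ (y + ap a y) = 0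
    · refine ⟨z + (y + ap a y), by rw [ap_add, haz, hfix], ?_⟩
      rw [add_dotProduct, dotProduct_add, dotProduct_add (y + ap a y), hzz, hww,
        dotProduct_comm (y + ap a y) z]
      intro h0
      exact mul_ne_zero h2 hzw (by linear_combination h0)
    · exact ⟨_, hfix y, hww⟩
  have hneg : ∀ w, w ⬝ᵥ x = 0 → ap a w = -w := by
    intro w hw
    by_contra hne
    refine ha1 (eq_one_of_fix_two h2 ha hd hx hax (fun h0 => hne (eq_neg_of_add_eq_zero_right h0)) ?_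
      (hfix w))
    nth_rw 1 [add_dotProduct, hw, ← hax, O3_dot ha, hw, add_zero]
  refine ⟨x, hx, gl_ext fun X => ?_⟩
  have hdec : X = (X ⬝ᵥ x / (x ⬝ᵥ x)) • x + (X - (X ⬝ᵥ x / (x ⬝ᵥ x)) • x) := by abel
  have hw : (X - (X ⬝ᵥ x / (x ⬝ᵥ x)) • x) ⬝ᵥ x = 0 := by
    rw [sub_dotProduct, smul_dotProduct, smul_eq_mul, div_mul_cancel₀ _ hx, sub_self]
  conv_lhs => rw [hdec, ap_add, ap_smul, hax, hneg _ hw]
  rw [ap_ht, mul_div_assoc, mul_smul, two_smul]
  abel

/-! ### Values in a plane, frames -/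

/-- The plane orthogonal to an anisotropic vector has a vector of norm one. -/
lemma exists_unit_perp [Finite F] (h2 : (2 : F) ≠ 0) {x : Fin 3 → F} (hx : x ⬝ᵥ x ≠ 0) :
    ∃ w, w ⬝ᵥ x = 0 ∧ w ⬝ᵥ w = 1 := by
  obtain ⟨u, hu, huu⟩ : ∃ u, u ⬝ᵥ x = 0 ∧ u ⬝ᵥ u ≠ 0 := by
    have hmem : ∀ y : Fin 3 → F, (y - (y ⬝ᵥ x / (x ⬝ᵥ x)) • x) ⬝ᵥ x = 0 := fun y => by
      rw [sub_dotProduct, smul_dotProduct, smul_eq_mul, div_mul_cancel₀ _ hx, sub_self]
    let K : Submodule F (Fin 3 → F) := LinearMap.ker ((sym h2).fl x)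
    obtain ⟨k, hk, hk0⟩ := Submodule.exists_mem_ne_zero_of_ne_bot
      (LinearMap.ker_ne_bot_of_finrank_lt (f := (sym h2).fl x) (by simp))
    obtain ⟨y, hy⟩ := (sym h2).exists_ne hk0
    have hkx : k ⬝ᵥ x = 0 := by simpa using hk
    obtain ⟨z, hz, hzz⟩ := (sym h2).exists_aniso_in (K := K) (x := k)
      (y := y - (y ⬝ᵥ x / (x ⬝ᵥ x)) • x) hk (by simpa [K] using hmem y) (by
      change k ⬝ᵥ (y - (y ⬝ᵥ x / (x ⬝ᵥ x)) • x) ≠ 0
      rw [dotProduct_sub, dotProduct_smul, hkx]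
      simpa using hy)
    exact ⟨z, by simpa [K] using hz, hzz⟩
  set v := x ⨯₃ u with hv
  have hxu : x ⬝ᵥ u = 0 := by rw [dotProduct_comm, hu]
  have hvv : v ⬝ᵥ v = (x ⬝ᵥ x) * (u ⬝ᵥ u) := by
    rw [hv, cross_dot_cross, hxu]; ring
  have hch : ringChar F ≠ 2 := fun hc => h2 (by
    have := hc ▸ ringChar.Nat.cast_ringChar (R := F)
    exact_mod_cast this)
  have := Fintype.ofFinite F
  obtain ⟨s, t, hst⟩ := FiniteField.exists_root_sum_quadratic
    (f := Polynomial.C (u ⬝ᵥ u) * Polynomial.X ^ 2)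
    (g := Polynomial.C (v ⬝ᵥ v) * Polynomial.X ^ 2 - 1) (by
      rw [Polynomial.degree_C_mul_X_pow 2 huu]; rfl) (by
      rw [sub_eq_add_neg, Polynomial.degree_add_eq_left_of_degree_lt]
      · rw [Polynomial.degree_C_mul_X_pow 2 (by rw [hvv]; exact mul_ne_zero hx huu)]; rfl
      · rw [Polynomial.degree_neg, Polynomial.degree_one,
          Polynomial.degree_C_mul_X_pow 2 (by rw [hvv]; exact mul_ne_zero hx huu)]
        exact two_pos) (FiniteField.odd_card_of_char_ne_two hch)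
  refine ⟨s • u + t • v, ?_, ?_⟩
  · rw [add_dotProduct, smul_dotProduct, smul_dotProduct, hu, hv, dot_cross_left]
    simp
  · simp only [Polynomial.eval_mul, Polynomial.eval_C, Polynomial.eval_pow, Polynomial.eval_X,
      Polynomial.eval_sub, Polynomial.eval_one] at hst
    simp only [add_dotProduct, dotProduct_add, smul_dotProduct, dotProduct_smul, smul_eq_mul,
      hv, dot_cross_right, dot_cross_self] at hst ⊢
    linear_combination hst

/-- A half-turn about a vector of square norm is a commutator of isometries. -/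
lemma ht_mem_commutator [Finite F] (h2 : (2 : F) ≠ 0) {z : Fin 3 → F} (hz : z ⬝ᵥ z ≠ 0)
    (hsq : IsSquare (z ⬝ᵥ z)) : ht z ∈ ⁅O3 F, O3 F⁆ := by
  obtain ⟨r, hr⟩ := hsq
  have hr0 : r ≠ 0 := fun h => hz (by rw [hr, h, mul_zero])
  set u := r⁻¹ • z with hu
  have huu : u ⬝ᵥ u = 1 := by
    rw [hu, smul_dotProduct, dotProduct_smul, hr, smul_eq_mul, smul_eq_mul]
    field_simp
  rw [show ht z = ht u by rw [hu, ht_smul (inv_ne_zero hr0)]]
  obtain ⟨x, hxu, hxx⟩ := exists_unit_perp h2 (x := u) (by rw [huu]; exact one_ne_zero)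
  set y := u ⨯₃ x with hy
  have hux : u ⬝ᵥ x = 0 := by rw [dotProduct_comm, hxu]
  have hyy : y ⬝ᵥ y = 1 := by rw [hy, cross_dot_cross, hux, huu, hxx]; ring
  have hxy : x ⬝ᵥ y = 0 := by rw [hy, dot_cross_self]
  have hs : (x + y) ⬝ᵥ (x + y) = 2 := by
    rw [add_dotProduct, dotProduct_add, dotProduct_add, hxx, hyy, hxy, dotProduct_comm y x, hxy]
    ring
  have hmap : ap (ht (x + y)) x = y := by
    rw [ap_ht, hs, dotProduct_add, hxx, hxy, add_zero, mul_one, div_self h2, one_smul]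
    abel
  have he : ⁅ht x, ht (x + y)⁆ = ht u := by
    have hc : ht (x + y) * ht x * (ht (x + y))⁻¹ = ht y := by
      rw [ht_conj (ht_mem _), hmap]
    rw [commutatorElement_def,
      show ht x * ht (x + y) * (ht x)⁻¹ * (ht (x + y))⁻¹ =
        ht x * (ht (x + y) * ht x * (ht (x + y))⁻¹) by rw [ht_inv x]; group, hc, ht_mul_ht (by rw [hxx]; exact one_ne_zero)
      (by rw [hyy]; exact one_ne_zero) hxy]
    congr 1
    rw [hy, ← cross_anticomm, cross_cross', hux, hxx, zero_smul, one_smul, zero_sub, neg_neg]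
  rw [← he]
  exact Subgroup.commutator_mem_commutator (ht_mem _) (ht_mem _)

/-! ### Siegel elements -/

/-- The Siegel element at `e` with parameter `w`. -/
abbrev rh (h2 : (2 : F) ≠ 0) (e w : Fin 3 → F) (he : e ⬝ᵥ e = 0) (hw : e ⬝ᵥ w = 0) :
    GL (Fin 3) F :=
  (sym h2).rho e w he hw

/-- The unipotent element `s` of a triple. -/
def rt (h2 : (2 : F) ≠ 0) {e f v : Fin 3 → F} (hτ : Trip e f v) (s : F) : GL (Fin 3) F :=
  rh h2 e (s • v) hτ.ee (show e ⬝ᵥ s • v = 0 by rw [dotProduct_smul, hτ.ev, smul_zero])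

variable (h2 : (2 : F) ≠ 0)

lemma ap_rt {e f v : Fin 3 → F} (hτ : Trip e f v) (s : F) (X : Fin 3 → F) :
    ap (rt h2 hτ s) X =
      X + (s * (X ⬝ᵥ e)) • v - (s * (X ⬝ᵥ v) - (2 : F)⁻¹ * s * s * (X ⬝ᵥ e)) • e := by
  rw [rt, rh, SymForm.ap_rho]
  simp only [dp, dotProduct_smul, smul_dotProduct, smul_eq_mul, hτ.vv]
  module

lemma rt_e {e f v : Fin 3 → F} (hτ : Trip e f v) (s : F) : ap (rt h2 hτ s) e = e := by
  rw [ap_rt, hτ.ee, hτ.ev]; simp

lemma rt_v {e f v : Fin 3 → F} (hτ : Trip e f v) (s : F) :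
    ap (rt h2 hτ s) v = v + s • e := by
  rw [ap_rt, hτ.ve, hτ.vv]
  simp only [mul_zero, zero_smul, add_zero, sub_zero, mul_neg, mul_one, neg_smul, sub_neg_eq_add]

lemma rt_f {e f v : Fin 3 → F} (hτ : Trip e f v) (s : F) :
    ap (rt h2 hτ s) f = f + s • v + ((2 : F)⁻¹ * s * s) • e := by
  rw [ap_rt, hτ.fe, hτ.fv]
  module

lemma rt_mem {e f v : Fin 3 → F} (hτ : Trip e f v) (s : F) :
    rt h2 hτ s ∈ ⁅O3 F, O3 F⁆ :=
  (sym h2).rho_mem_commutator hτ.ee (show e ⬝ᵥ s • v = 0 by rw [dotProduct_smul, hτ.ev, smul_zero])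

lemma rt_mem_O3 {e f v : Fin 3 → F} (hτ : Trip e f v) (s : F) : rt h2 hτ s ∈ O3 F :=
  (sym h2).rho_mem_isom hτ.ee (show e ⬝ᵥ s • v = 0 by rw [dotProduct_smul, hτ.ev, smul_zero])

lemma rt_mul {e f v : Fin 3 → F} (hτ : Trip e f v) (s t : F) :
    rt h2 hτ s * rt h2 hτ t = rt h2 hτ (s + t) := by
  refine gl_ext fun X => ?_
  rw [ap_mul, ap_rt h2 hτ t, ap_rt, ap_rt h2 hτ (s + t)]
  simp only [add_dotProduct, sub_dotProduct, smul_dotProduct, smul_eq_mul, hτ.ve, hτ.ee, hτ.vv,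
    hτ.ev]
  match_scalars <;> field_simp <;> ring

lemma rt_zero {e f v : Fin 3 → F} (hτ : Trip e f v) : rt h2 hτ 0 = 1 :=
  gl_ext fun X => by rw [ap_rt, ap_one]; simp

lemma rt_pow {e f v : Fin 3 → F} (hτ : Trip e f v) (s : F) (m : ℕ) :
    rt h2 hτ s ^ m = rt h2 hτ (m * s) := by
  induction m with
  | zero => rw [pow_zero, Nat.cast_zero, zero_mul, rt_zero]
  | succ m ih => rw [pow_succ, ih, rt_mul]; congr 1; push_cast; ring

lemma rt_inj {e f v : Fin 3 → F} (hτ : Trip e f v) {s : F} (h : rt h2 hτ s = 1) : s = 0 := by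
  have h1 := rt_v h2 hτ s
  rw [h, ap_one, left_eq_add] at h1
  exact (smul_eq_zero.mp h1).resolve_right hτ.e_ne

/-- A rotation fixing a singular vector is one of its Siegel elements. -/
lemma eq_rt_of_fix {e f v : Fin 3 → F} (hτ : Trip e f v) {a : GL (Fin 3) F} (ha : a ∈ O3 F)
    (hd : (a : Matrix (Fin 3) (Fin 3) F).det = 1) (hae : ap a e = e) :
    ∃ s, a = rt h2 hτ s := by
  set D := ap a v
  have hDe : D ⬝ᵥ e = 0 := by rw [← hae, O3_dot ha, hτ.ve]
  have hD := hτ.decomp D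
  rw [hDe, zero_smul, add_zero] at hD
  have hDv : D ⬝ᵥ v * (D ⬝ᵥ v) = 1 := by
    have h := O3_dot ha v v
    change D ⬝ᵥ D = v ⬝ᵥ v at h
    rw [hD] at h
    simp only [sub_dotProduct, dotProduct_sub, smul_dotProduct, dotProduct_smul, smul_eq_mul,
      hτ.ee, hτ.ev, hτ.ve, hτ.vv] at h
    linear_combination -h
  set G := ap a f
  have hGe : G ⬝ᵥ e = 1 := by rw [← hae, O3_dot ha, hτ.fe]
  have hG := hτ.decomp G
  rw [hGe, one_smul] at hG
  -- the sign from the triple product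
  have hv' : D = e ⨯₃ G := by
    rw [← hae]
    change ap a v = _
    rw [hτ.hv, ap_cross ha hd, hae]
  rw [hG] at hv'
  simp only [map_sub, map_add, map_smul, cross_self, smul_zero, zero_add, ← hτ.hv] at hv'
  rw [show e ⨯₃ v = e by
    rw [hτ.hv, ← cross_anticomm (e ⨯₃ f) e, cross_cross', hτ.ee, dotProduct_comm f e, hτ.ef]
    simp] at hv'
  set s := -(G ⬝ᵥ v) with hs
  have hv'' : D = v + s • e := by rw [hv', hs, neg_smul, sub_eq_add_neg]
  refine ⟨s, ?_⟩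
  have hGf : G ⬝ᵥ f = (2 : F)⁻¹ * s * s := by
    have h := O3_dot ha f f
    change G ⬝ᵥ G = f ⬝ᵥ f at h
    nth_rw 1 [hG] at h
    simp only [sub_dotProduct, add_dotProduct, smul_dotProduct, smul_eq_mul, hτ.ff,
      dotProduct_comm e G, dotProduct_comm f G, dotProduct_comm v G, hGe] at h
    rw [hs]
    field_simp
    linear_combination h
  have key : (apEquiv a).toLinearMap = (apEquiv (rt h2 hτ s)).toLinearMap := by
    refine hτ.ext_trip ?_ ?_ ?_
    · simp [rt_e h2 hτ, hae]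
    · simp only [LinearEquiv.coe_coe, apEquiv_apply]
      rw [rt_f]
      change G = _
      rw [hG, hGf, hs]
      module
    · simp only [LinearEquiv.coe_coe, apEquiv_apply, rt_v h2 hτ]
      exact hv''
  exact gl_ext fun X => LinearMap.congr_fun key X

/-- Every vector is orthogonal to a non-zero one. -/
lemma exists_ne_perp (h2 : (2 : F) ≠ 0) (x : Fin 3 → F) : ∃ u : Fin 3 → F, u ≠ 0 ∧ u ⬝ᵥ x = 0 := by
  obtain ⟨k, hk, hk0⟩ := Submodule.exists_mem_ne_zero_of_ne_bot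
    (LinearMap.ker_ne_bot_of_finrank_lt (f := (sym h2).fl x) (by simp))
  exact ⟨k, hk0, by simpa using hk⟩

/-- An element of `p`-power order fixing a line keeps its vectors fixed. -/
lemma fix_of_line {a : GL (Fin 3) F} {p k : ℕ} [Fact p.Prime] [CharP F p]
    (hak : a ^ p ^ k = 1) {x : Fin 3 → F} (hx0 : x ≠ 0) {l : F} (hl : ap a x = l • x) :
    ap a x = x := by
  have hm : ∀ m : ℕ, ap (a ^ m) x = l ^ m • x := by
    intro m
    induction m with
    | zero => simp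
    | succ m ih => rw [pow_succ', ap_mul, ih, ap_smul, hl, smul_smul, pow_succ]
  have h1 := hm (p ^ k)
  rw [hak, ap_one] at h1
  have h3 : l ^ p ^ k = 1 := by
    have h4 : (l ^ p ^ k - 1) • x = 0 := by rw [sub_smul, one_smul, ← h1, sub_self]
    exact sub_eq_zero.mp ((smul_eq_zero.mp h4).resolve_right hx0)
  have h5 : (l - 1) ^ p ^ k = 0 := by rw [sub_pow_char_pow, one_pow, h3, sub_self]
  rw [hl, sub_eq_zero.mp (pow_eq_zero_iff'.mp h5).1, one_smul]

/-- An isometry of `p`-power order fixing an anisotropic line is trivial. -/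
lemma eq_one_of_line (h2 : (2 : F) ≠ 0) {a : GL (Fin 3) F} (ha : a ∈ O3 F) {p k : ℕ} [Fact p.Prime] [CharP F p]
    (hp : p ≠ 2) (hak : a ^ p ^ k = 1) {x : Fin 3 → F} (hx : x ⬝ᵥ x ≠ 0) {l : F}
    (hl : ap a x = l • x) : a = 1 := by
  have hd := det_eq_one_of_odd_pow ha ((Nat.Prime.odd_of_ne_two Fact.out hp).pow) hak
  have hax := fix_of_line hak (fun h => hx (by rw [h, zero_dotProduct])) hl
  let N : Module.End F (Fin 3 → F) := (apEquiv a).toLinearMap - 1
  have hN : N ^ p ^ k = 0 := by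
    have : CharP (Module.End F (Fin 3 → F)) p := charP_of_injective_algebraMap
      (FaithfulSMul.algebraMap_injective F (Module.End F (Fin 3 → F))) p
    change ((apEquiv a).toLinearMap - 1) ^ p ^ k = 0
    rw [sub_pow_char_pow_of_commute _ _ (Commute.one_right _), one_pow, sub_eq_zero]
    refine LinearMap.ext fun X => ?_
    have hm : ∀ m : ℕ, ((apEquiv a).toLinearMap ^ m : Module.End F (Fin 3 → F)) X =
        ap (a ^ m) X := by
      intro m
      induction m with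
      | zero => simp
      | succ m ih =>
        rw [pow_succ', pow_succ', Module.End.mul_apply, ih, ap_mul]
        rfl
    rw [hm, hak, ap_one, Module.End.one_apply]
  have hperp : ∀ X, X ⬝ᵥ x = 0 → N X ⬝ᵥ x = 0 := fun X hX => by
    change (ap a X - X) ⬝ᵥ x = 0
    rw [sub_dotProduct, hX, sub_zero, ← hax, O3_dot ha, hX]
  obtain ⟨u, hu0, hux⟩ := exists_ne_perp h2 x
  have hpow : ∀ m, (N ^ m) u ⬝ᵥ x = 0 := by
    intro m
    induction m with
    | zero => simpa using hux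
    | succ m ih => rw [pow_succ', Module.End.mul_apply]; exact hperp _ ih
  have hex : ∃ m, (N ^ m) u = 0 := ⟨p ^ k, by rw [hN]; rfl⟩
  classical
  have hm0 : Nat.find hex ≠ 0 := fun h0 => hu0 (by simpa [h0] using Nat.find_spec hex)
  obtain ⟨m, hm⟩ := Nat.exists_eq_succ_of_ne_zero hm0
  refine eq_one_of_fix_two h2 ha hd hx hax (Nat.find_min hex (m := m) (by omega)) (hpow m) ?_
  have h1 := Nat.find_spec hex
  rw [hm, pow_succ', Module.End.mul_apply] at h1
  exact sub_eq_zero.mp h1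

/-- The commutator group moves any singular line to any other. -/
lemma exists_move (h2 : (2 : F) ≠ 0) {e e' : Fin 3 → F} (he0 : e ≠ 0) (he : e ⬝ᵥ e = 0) (he0' : e' ≠ 0)
    (he' : e' ⬝ᵥ e' = 0) : ∃ h ∈ ⁅O3 F, O3 F⁆, ∃ l : F, l ≠ 0 ∧ ap h e = l • e' := by
  by_cases h0 : e ⬝ᵥ e' = 0
  · obtain ⟨t, rfl⟩ := prop_of_singular h2 he0 he he' h0
    have ht0 : t ≠ 0 := fun h => he0' (by rw [h, zero_smul])
    exact ⟨1, one_mem _, t⁻¹, inv_ne_zero ht0, by
      rw [ap_one, smul_smul, inv_mul_cancel₀ ht0, one_smul]⟩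
  set f := (e ⬝ᵥ e')⁻¹ • e' with hf
  have hτ : Trip e f (e ⨯₃ f) :=
    ⟨he, by rw [hf, smul_dotProduct, dotProduct_smul, he']; simp,
      by rw [hf, dotProduct_smul, smul_eq_mul, inv_mul_cancel₀ h0], rfl⟩
  set v := e ⨯₃ f
  set z := e + v + (2 : F)⁻¹ • f with hz
  have hi : (2 : F)⁻¹ * 2 = 1 := inv_mul_cancel₀ h2
  have hzz : z ⬝ᵥ z = 0 := by
    simp only [hz, add_dotProduct, dotProduct_add, smul_dotProduct, dotProduct_smul, smul_eq_mul,
      hτ.ee, hτ.ff, hτ.ef, hτ.fe, hτ.ev, hτ.ve, hτ.fv, hτ.vf, hτ.vv]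
    linear_combination hi
  have hze : z ⬝ᵥ e = (2 : F)⁻¹ := by
    simp [hz, add_dotProduct, smul_dotProduct, hτ.ee, hτ.ve, hτ.fe]
  have hzf : z ⬝ᵥ f = 1 := by
    simp [hz, add_dotProduct, smul_dotProduct, hτ.ef, hτ.vf, hτ.ff]
  set w := f - (2 : F) • e with hw
  have hzw : z ⬝ᵥ w = 0 := by
    rw [hw, dotProduct_sub, hzf, dotProduct_smul, hze, smul_eq_mul, mul_inv_cancel₀ h2, sub_self]
  refine ⟨rh h2 z w hzz hzw, (sym h2).rho_mem_commutator _ _,
    (2 : F)⁻¹ * (e ⬝ᵥ e')⁻¹, mul_ne_zero (inv_ne_zero h2) (inv_ne_zero h0), ?_⟩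
  rw [mul_smul, ← hf, SymForm.ap_rho]
  simp only [dp, dotProduct_comm e z, hze, hw, dotProduct_sub, sub_dotProduct, dotProduct_smul,
    smul_dotProduct, smul_eq_mul, hτ.ee, hτ.ef, hτ.ff, hτ.fe]
  match_scalars <;> field_simp <;> ring


end CfsgLib.Geometric.TSquare
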