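import Cfsg.Agent.Lib.Geometric.Orth.TensorSquare.Conj

/-!
The centraliser of the four-group of products of half-turns along two frames, one of square norms:
it is a two-group and lies in the stabiliser.
-/

set_option autoImplicit false
set_option linter.unusedSectionVars false
set_option linter.unusedSimpArgs false
set_option linter.style.haveILetI false

namespace CfsgLib.Geometric.TSquare

open Matrix Tensor QuadraticMap OrthTensor

variable {ι : Type} [Fintype ι] [DecidableEq ι] {F : Type*} [Field F] [Finite F]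
variable {e : ι ≃ Fin 3 × Fin 3} {P : GL ι F} {Q : QuadraticForm F (ι → F)} {c : F}

/-- An orthogonal frame of anisotropic vectors. -/
structure Frame (a : Fin 3 → Fin 3 → F) : Prop where
  norm : ∀ i, a i ⬝ᵥ a i ≠ 0
  orth : ∀ i j, i ≠ j → a i ⬝ᵥ a j = 0

lemma Frame.mk' {x y z : Fin 3 → F} (hx : x ⬝ᵥ x ≠ 0) (hy : y ⬝ᵥ y ≠ 0) (hz : z ⬝ᵥ z ≠ 0)
    (hxy : x ⬝ᵥ y = 0) (hxz : x ⬝ᵥ z = 0) (hyz : y ⬝ᵥ z = 0) : Frame ![x, y, z] := by
  refine ⟨fun i => by fin_cases i <;> assumption, fun i j hij => ?_⟩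
  fin_cases i <;> fin_cases j <;> first
    | exact absurd rfl hij
    | assumption
    | (rw [dotProduct_comm]; assumption)

namespace Frame

variable {a : Fin 3 → Fin 3 → F} (hA : Frame a)
include hA

lemma ext_frame {M : Type*} [AddCommGroup M] [Module F M] {g h : (Fin 3 → F) →ₗ[F] M}
    (h0 : ∀ i, g (a i) = h (a i)) : g = h := by
  have hc := hA.orth 0 1 (by decide)
  set n := a 0 ⨯₃ a 1
  have hnn : n ⬝ᵥ n ≠ 0 := by
    rw [cross_dot_cross, hc]; simp [hA.norm 0, hA.norm 1]
  have h3 := decomp_orth (hA.norm 0) (hA.norm 1) hc (a 2)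
  rw [hA.orth 2 0 (by decide), hA.orth 2 1 (by decide)] at h3
  simp only [zero_div, zero_smul, zero_add] at h3
  set l := a 2 ⬝ᵥ n / (n ⬝ᵥ n)
  have hl : l ≠ 0 := fun h => hA.norm 2 (by rw [h3, h, zero_smul, zero_dotProduct])
  have hn : g n = h n := by
    have h4 := h0 2
    rw [h3, map_smul, map_smul] at h4
    exact smul_right_injective _ hl h4
  refine LinearMap.ext fun X => ?_
  conv_lhs => rw [decomp_orth (hA.norm 0) (hA.norm 1) hc X]
  conv_rhs => rw [decomp_orth (hA.norm 0) (hA.norm 1) hc X]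
  simp only [map_add, map_smul, h0, n] at hn ⊢
  rw [hn]

lemma ht_mul : ht (a 0) * ht (a 1) = ht (a 2) := by
  rw [ht_mul_ht (hA.norm 0) (hA.norm 1) (hA.orth 0 1 (by decide))]
  have h3 := decomp_orth (hA.norm 0) (hA.norm 1) (hA.orth 0 1 (by decide)) (a 2)
  rw [hA.orth 2 0 (by decide), hA.orth 2 1 (by decide)] at h3
  simp only [zero_div, zero_smul, zero_add] at h3
  rw [h3, ht_smul fun h => hA.norm 2 (by rw [h3, h, zero_smul, zero_dotProduct])]

lemma ht_comm (i j : Fin 3) : ht (a i) * ht (a j) = ht (a j) * ht (a i) := by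
  by_cases h : i = j
  · rw [h]
  · rw [ht_mul_ht (hA.norm i) (hA.norm j) (hA.orth i j h),
      ht_mul_ht (hA.norm j) (hA.norm i) (hA.orth j i (Ne.symm h)), ← cross_anticomm,
      show -(a j ⨯₃ a i) = (-1 : F) • (a j ⨯₃ a i) by simp, ht_smul (by simp)]

end Frame

/-- The sign of the half-turn about the `k`-th frame vector at the `i`-th. -/
def sgn (k i : Fin 3) : F := if i = k then 1 else -1

lemma ap_ht_frame {a : Fin 3 → Fin 3 → F} (hA : Frame a) (k i : Fin 3) :
    ap (ht (a k)) (a i) = (sgn k i : F) • a i := by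
  rw [sgn]
  split_ifs with h
  · rw [h, ap_ht_self (hA.norm k), one_smul]
  · rw [ap_ht_perp (hA.orth i k h), neg_one_smul]

namespace Data

variable (hT : Data Q e P c) {M : Subgroup (GL ι F)}
include hT

set_option maxHeartbeats 4000000 in
/-- The centraliser of the four-group of two frames. -/
theorem four_cent (hO : hT.Over M) {a b : Fin 3 → Fin 3 → F} (hA : Frame a) (hB : Frame b)
    (hsq : ∀ i, IsSquare (a i ⬝ᵥ a i)) {g : GL ι F} (hgM : g ∈ M)
    (hg : ∀ k, g * kron e P (ht (a k)) (ht (b k)) = kron e P (ht (a k)) (ht (b k)) * g) :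
    g ∈ TT e P := by
  classical
  have h2 := hT.two
  set E : Fin 3 → GL ι F := fun k => kron e P (ht (a k)) (ht (b k)) with hE
  set C : Subgroup (GL ι F) := M ⊓ Subgroup.centralizer (Set.range E) with hC
  have hmemC : ∀ {m : GL ι F}, m ∈ C ↔ m ∈ M ∧ ∀ k, m * E k = E k * m := fun {m} => by
    rw [hC, Subgroup.mem_inf, Subgroup.mem_centralizer_iff]
    exact and_congr_right fun _ => ⟨fun h k => (h _ ⟨k, rfl⟩).symm, fun h z ⟨k, hk⟩ =>
      hk ▸ (h k).symm⟩
  let p : Fin 3 → Fin 3 → ι → F := fun i j => pt e P (a i) (b j)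
  let N : Fin 3 → Fin 3 → F := fun i j => c * ((a i ⬝ᵥ a i) * (b j ⬝ᵥ b j))
  have hN0 : ∀ i j, N i j ≠ 0 := fun i j =>
    mul_ne_zero hT.c_ne (mul_ne_zero (hA.norm i) (hB.norm j))
  have hpp : ∀ i j k l, polar Q (p i j) (p k l) = if k = i ∧ l = j then N i j else 0 := by
    intro i j k l
    simp only [p, hT.polar_pt]
    split_ifs with h
    · rw [h.1, h.2]
    · rcases not_and_or.mp h with h | h
      · rw [hA.orth i k (Ne.symm h)]; ring
      · rw [hB.orth j l (Ne.symm h)]; ring
  have hext : ∀ {M' : Type _} [AddCommGroup M'] [Module F M'] {f f' : (ι → F) →ₗ[F] M'},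
      (∀ i j, f (p i j) = f' (p i j)) → f = f' := by
    intro M' _ _ f f' h
    refine ext_pt e P fun x y => ?_
    have h1 : ∀ i, f.comp (ptr e P (a i)) = f'.comp (ptr e P (a i)) := fun i =>
      hB.ext_frame fun j => h i j
    have h3 : f.comp (ptl e P y) = f'.comp (ptl e P y) :=
      hA.ext_frame fun i => LinearMap.congr_fun (h1 i) y
    exact LinearMap.congr_fun h3 x
  have hgl : ∀ {m m' : GL ι F}, (∀ i j, ap m (p i j) = ap m' (p i j)) → m = m' := fun {m m'} h =>
    gl_ext (LinearMap.congr_fun (hext (f := (apEquiv m).toLinearMap)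
      (f' := (apEquiv m').toLinearMap) h))
  have hnd : ∀ {X : ι → F}, (∀ k l, polar Q X (p k l) = 0) → X = 0 := fun {X} h =>
    hT.nondeg X fun Y => LinearMap.congr_fun (hext (f := (polarBilin Q) X) (f' := 0)
      (fun k l => h k l)) Y
  have hEp : ∀ k i j, ap (E k) (p i j) = (sgn k i * sgn k j : F) • p i j := fun k i j => by
    simp only [hE, p, ap_kron, ap_ht_frame hA, ap_ht_frame hB, pt_smul_left, pt_smul_right,
      smul_smul]
    rw [mul_comm]
  -- the pairs are kept
  have hsupp : ∀ {i j k l : Fin 3}, i ≠ j → ¬ (k = i ∧ l = j) → ¬ (k = j ∧ l = i) →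
      ∃ m : Fin 3, (sgn m i * sgn m j : F) ≠ sgn m k * sgn m l := by
    intro i j k l hij h1 h3
    have hd : ∃ m : Fin 3, (decide (i = m) == decide (j = m)) ≠
        (decide (k = m) == decide (l = m)) := by
      revert i j k l; decide
    obtain ⟨m, hm⟩ := hd
    refine ⟨m, ?_⟩
    have hne : (-1 : F) ≠ 1 := fun h => h2 (by linear_combination -h)
    have hs : ∀ x y : Fin 3, (sgn m x * sgn m y : F) =
        if (decide (x = m) == decide (y = m)) then 1 else -1 := fun x y => by
      simp only [sgn]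
      by_cases hx : x = m <;> by_cases hy : y = m <;> simp [hx, hy]
    rw [hs, hs]
    generalize (decide (i = m) == decide (j = m)) = u at hm
    generalize (decide (k = m) == decide (l = m)) = v at hm
    cases u <;> cases v <;> first
      | exact absurd rfl hm
      | simpa using hne
      | simpa using hne.symm
  let co : GL ι F → Fin 3 → Fin 3 → F := fun m i j => polar Q (ap m (p i j)) (p i j) / N i j
  let off : GL ι F → Fin 3 → Fin 3 → F := fun m i j => polar Q (ap m (p i j)) (p j i) / N j i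
  have hI : ∀ {m : GL ι F}, m ∈ C → m ∈ Cfsg.isometryGroup F (⇑Q) := fun hm =>
    Orth.omegaGL_le (hO.le (hmemC.mp hm).1)
  have hexp : ∀ {m : GL ι F}, m ∈ C → ∀ {i j}, i ≠ j →
      ap m (p i j) = co m i j • p i j + off m i j • p j i := by
    intro m hm i j hij
    refine sub_eq_zero.mp (hnd fun k l => ?_)
    rw [polar_sub_left, polar_add_left, polar_smul_left, polar_smul_left, hpp, hpp]
    by_cases hk1 : k = i ∧ l = j
    · obtain ⟨rfl, rfl⟩ := hk1
      rw [if_pos ⟨rfl, rfl⟩, if_neg (fun h => hij h.1)]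
      simp only [co, smul_eq_mul, div_mul_cancel₀ _ (hN0 _ _), mul_zero, add_zero, sub_self]
    by_cases hk2 : k = j ∧ l = i
    · obtain ⟨rfl, rfl⟩ := hk2
      rw [if_neg hk1, if_pos ⟨rfl, rfl⟩]
      simp only [off, smul_eq_mul, div_mul_cancel₀ _ (hN0 _ _), mul_zero, zero_add, sub_self]
    rw [if_neg hk1, if_neg hk2, smul_zero, smul_zero, add_zero, sub_zero]
    obtain ⟨q, hq⟩ := hsupp hij hk1 hk2
    have h1 : polar Q (ap (E q) (ap m (p i j))) (ap (E q) (p k l)) =
        polar Q (ap m (p i j)) (p k l) :=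
      Orth.polar_ap (hT.kron_isometry (ht_mem _) (ht_mem _)) _ _
    rw [← ap_mul, ← (hmemC.mp hm).2 q, ap_mul, hEp, hEp, ap_smul, polar_smul_left,
      polar_smul_right] at h1
    have hs : ∀ k l : Fin 3, (sgn q k * sgn q l : F) * (sgn q k * sgn q l) = 1 := fun k l => by
      simp only [sgn]; split_ifs <;> ring
    have h3 : ((sgn q i * sgn q j : F) - sgn q k * sgn q l) *
        polar Q (ap m (p i j)) (p k l) = 0 := by
      simp only [smul_eq_mul] at h1
      linear_combination (sgn q k * sgn q l : F) * h1 -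
        (sgn q i * sgn q j : F) * polar Q (ap m (p i j)) (p k l) * hs k l
    exact (mul_eq_zero.mp h3).resolve_left (sub_ne_zero.mpr hq)
  -- the half-turns of the first factor
  set t : Fin 3 → GL ι F := fun k => kron e P (ht (a k)) 1 with ht'
  have htC : ∀ k, t k ∈ C := fun k => hmemC.mpr
    ⟨hO.mem _ (kron_mem_TT _ _) (hT.ht_one_omega (hA.norm k) (hsq k)), fun l => by
      simp only [ht', hE, ← kron_mul', mul_one, one_mul, hA.ht_comm]⟩
  have htp : ∀ k i j, ap (t k) (p i j) = (sgn k i : F) • p i j := fun k i j => by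
    simp only [ht', p, ap_kron, ap_ht_frame hA, ap_one, pt_smul_left]
  have htt : ∀ k, t k * t k = 1 := fun k => kron_ht_one_sq _
  -- centralised elements act diagonally
  have hdiag : ∀ {m : GL ι F}, m ∈ C → ∀ k, m * t k = t k * m →
      ∃ α β : Fin 3 → F, (∀ i j, ap m (p i j) = (α i * β j) • p i j) ∧ (∀ i, α i * α i = 1) ∧
        ∀ j, β j * β j = 1 := by
    intro m hm k hk
    obtain ⟨hmM, hmE⟩ := hmemC.mp hm
    have hmT := hT.root_cent hO (hA.norm k) hmM hk
    obtain ⟨u, w, hu, hw, rfl, -, -⟩ := hT.normal_commute hmT (hO.le hmM) (hA.norm k) hk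
    have hcomm : ∀ l, u * ht (a l) = ht (a l) * u ∧ w * ht (b l) = ht (b l) * w := fun l => by
      have h1 := hmE l
      simp only [hE, ← kron_mul'] at h1
      exact kron_inj h2 (mul_mem hu (ht_mem_SO3 h2 (hA.norm l)))
        (mul_mem hw (ht_mem_SO3 h2 (hB.norm l))) (mul_mem (ht_mem_SO3 h2 (hA.norm l)) hu)
        (mul_mem (ht_mem_SO3 h2 (hB.norm l)) hw) h1
    have hax : ∀ {u : GL (Fin 3) F}, u ∈ SO3 F → ∀ {x : Fin 3 → F}, x ⬝ᵥ x ≠ 0 →
        u * ht x = ht x * u → ∃ l : F, ap u x = l • x ∧ l * l = 1 := by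
      intro u hu x hx h
      have h3 := ht_conj (mem_SO3.mp hu).1 x
      rw [h, mul_inv_cancel_right] at h3
      obtain ⟨l, -, hl⟩ := axis_unique h2 hx (O3_aniso (mem_SO3.mp hu).1 hx) h3
      refine ⟨l, hl, ?_⟩
      have h4 := O3_dot (mem_SO3.mp hu).1 x x
      rw [hl, smul_dotProduct, dotProduct_smul, smul_eq_mul, smul_eq_mul, ← mul_assoc] at h4
      exact mul_right_cancel₀ hx (h4.trans (one_mul _).symm)
    choose α hα hα2 using fun i => hax hu (hA.norm i) (hcomm i).1
    choose β hβ hβ2 using fun j => hax hw (hB.norm j) (hcomm j).2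
    exact ⟨α, β, fun i j => by
      simp only [p, ap_kron, hα, hβ, pt_smul_left, pt_smul_right, smul_smul]
      rw [mul_comm], hα2, hβ2⟩
  -- the kernel on the pairs
  let K : Subgroup (GL ι F) :=
    { carrier := {m | m ∈ C ∧ ∀ i j, i ≠ j → ap m (p i j) = p i j}
      mul_mem' := fun ha hb => ⟨mul_mem ha.1 hb.1, fun i j h => by
        rw [ap_mul, hb.2 i j h, ha.2 i j h]⟩
      one_mem' := ⟨one_mem _, fun i j _ => ap_one _⟩
      inv_mem' := fun ha => ⟨inv_mem ha.1, fun i j h => by
        conv_lhs => rw [← ha.2 i j h, ap_inv_ap]⟩ }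
  have hKn : ∀ m ∈ C, ∀ z ∈ K, m * z * m⁻¹ ∈ K := fun m hm z hz =>
    ⟨mul_mem (mul_mem hm hz.1) (inv_mem hm), fun i j h => by
      have h1 : ap z (ap m⁻¹ (p i j)) = ap m⁻¹ (p i j) := by
        rw [hexp (inv_mem hm) h, ap_add, ap_smul, ap_smul, hz.2 i j h, hz.2 j i (Ne.symm h)]
      rw [ap_mul, ap_mul, h1, ap_ap_inv]⟩
  have hK1 : ∀ {z : GL ι F}, z ∈ K → ∀ k, z * t k = t k * z → z = 1 := by
    intro z hz k hk
    obtain ⟨α, β, hαβ, hα, hβ⟩ := hdiag hz.1 k hk
    have h1 : ∀ i j, i ≠ j → α i * β j = 1 := fun i j h => by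
      have h3 : ((α i * β j) - 1) • p i j = 0 := by
        rw [sub_smul, one_smul, ← hαβ, hz.2 i j h, sub_self]
      refine sub_eq_zero.mp ((smul_eq_zero.mp h3).resolve_right fun h0 => hN0 i j ?_)
      have := hpp i j i j
      rw [if_pos ⟨rfl, rfl⟩, h0, polar_zero_left] at this
      exact this.symm
    have hαeq : ∀ i, α i = α 0 := by
      have e1 : α 1 = α 0 := by
        linear_combination α 0 * h1 1 2 (by decide) - α 1 * h1 0 2 (by decide)
      have e2 : α 2 = α 0 := by
        linear_combination α 0 * h1 2 1 (by decide) - α 2 * h1 0 1 (by decide)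
      intro i; fin_cases i <;> first | rfl | exact e1 | exact e2
    have hβeq : ∀ j, β j = α 0 := fun j => by
      obtain ⟨i, hi⟩ : ∃ i : Fin 3, i ≠ j := by revert j; decide
      have h3 := h1 i j hi
      rw [hαeq] at h3
      linear_combination α 0 * h3 - β j * hα 0
    exact hgl fun i j => by
      rw [hαβ, hαeq, hβeq, hα, one_smul, ap_one]
  have hK : ∀ z ∈ K, z = 1 := by
    have hinv : ∀ k, ∀ z ∈ K, t k * z * t k = z⁻¹ := by
      intro k z hz
      let φ : K → K := fun n => ⟨(n : GL ι F)⁻¹ * (t k * n * t k), mul_mem (inv_mem n.2)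
        (by
          have := hKn _ (htC k) _ n.2
          rwa [inv_eq_of_mul_eq_one_right (htt k)] at this)⟩
      have hφ : Function.Injective φ := by
        intro n n' h
        have h1 : (n : GL ι F)⁻¹ * (t k * n * t k) = (n' : GL ι F)⁻¹ * (t k * n' * t k) :=
          congrArg Subtype.val h
        have h3 : ((n' : GL ι F) * (n : GL ι F)⁻¹) * t k = t k * (n' * (n : GL ι F)⁻¹) := by
          have h4 : (n' : GL ι F) * (n : GL ι F)⁻¹ * t k * (n : GL ι F) * t k = t k * n' * t k := by
            calc _ = (n' : GL ι F) * ((n : GL ι F)⁻¹ * (t k * n * t k)) := by simp only [mul_assoc]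
              _ = _ := by rw [h1, mul_inv_cancel_left]
          have h5 := mul_right_cancel h4
          rw [← mul_assoc, ← h5, mul_inv_cancel_right]
        have h6 := hK1 (mul_mem n'.2 (inv_mem n.2)) k h3
        exact Subtype.ext (mul_inv_eq_one.mp h6).symm
      obtain ⟨n, hn⟩ := (Finite.injective_iff_surjective.mp hφ) ⟨z, hz⟩
      have hn' : z = (n : GL ι F)⁻¹ * (t k * n * t k) := (congrArg Subtype.val hn).symm
      rw [hn']
      calc t k * ((n : GL ι F)⁻¹ * (t k * n * t k)) * t k
          = t k * (n : GL ι F)⁻¹ * t k * n * (t k * t k) := by simp only [mul_assoc]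
        _ = _ := by
          rw [htt, mul_one, _root_.mul_inv_rev, _root_.mul_inv_rev, _root_.mul_inv_rev, inv_inv,
            inv_eq_of_mul_eq_one_right (htt k)]
          simp only [mul_assoc]
    intro z hz
    have h12 : t 0 * t 1 = t 2 := by
      simp only [ht', ← kron_mul', mul_one, hA.ht_mul]
    refine hK1 hz 2 ?_
    have hi : ∀ k, t k * z = z⁻¹ * t k := fun k => by
      rw [← hinv k z hz, mul_assoc, htt, mul_one]
    have h1' : t 1 * z⁻¹ = z * t 1 := by
      conv_rhs => rw [← inv_inv z, ← hinv 1 z⁻¹ (inv_mem hz), mul_assoc, htt, mul_one]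
    have h0' : t 0 * z⁻¹ = z * t 0 := by
      conv_rhs => rw [← inv_inv z, ← hinv 0 z⁻¹ (inv_mem hz), mul_assoc, htt, mul_one]
    rw [← h12, mul_assoc (t 0), hi 1, ← mul_assoc (t 0), h0', mul_assoc]
  -- rotations on the pairs
  let Rot : GL ι F → Prop := fun m => ∀ i j, i ≠ j →
    co m j i = co m i j ∧ off m j i * N i j = -(off m i j * N j i)
  have hnorm : ∀ {m : GL ι F}, m ∈ C → ∀ {i j}, i ≠ j →
      co m i j * co m i j * N i j + off m i j * off m i j * N j i = N i j ∧
      co m i j * off m j i * N i j + off m i j * co m j i * N j i = 0 := by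
    intro m hm i j hij
    have hne : ¬ (i = j ∧ j = i) := fun h => hij h.1
    have hne' : ¬ (j = i ∧ i = j) := fun h => hij h.2
    constructor
    · have h := Orth.polar_ap (hI hm) (p i j) (p i j)
      rw [hexp hm hij] at h
      simp only [polar_add_left, polar_add_right, polar_smul_left, polar_smul_right, hpp, hne,
        hne', and_self, if_true, if_false, smul_eq_mul] at h
      linear_combination h
    · have h := Orth.polar_ap (hI hm) (p i j) (p j i)
      rw [hexp hm hij, hexp hm (Ne.symm hij)] at h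
      simp only [polar_add_left, polar_add_right, polar_smul_left, polar_smul_right, hpp, hne,
        hne', and_self, if_true, if_false, smul_eq_mul] at h
      linear_combination h
  have hprod : ∀ {m m' : GL ι F}, m ∈ C → m' ∈ C → ∀ {i j}, i ≠ j →
      co (m * m') i j = co m' i j * co m i j + off m' i j * off m j i ∧
      off (m * m') i j = co m' i j * off m i j + off m' i j * co m j i := by
    intro m m' hm hm' i j hij
    have h1 : ap (m * m') (p i j) =
        (co m' i j * co m i j + off m' i j * off m j i) • p i j +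
        (co m' i j * off m i j + off m' i j * co m j i) • p j i := by
      rw [ap_mul, hexp hm' hij, ap_add, ap_smul, ap_smul, hexp hm hij, hexp hm (Ne.symm hij)]
      module
    have hne : ¬ (i = j ∧ j = i) := fun h => hij h.1
    have hne' : ¬ (j = i ∧ i = j) := fun h => hij h.2
    constructor
    · change polar Q (ap (m * m') (p i j)) (p i j) / N i j = _
      rw [h1, polar_add_left, polar_smul_left, polar_smul_left, hpp, hpp, if_pos ⟨rfl, rfl⟩,
        if_neg hne, smul_eq_mul, smul_eq_mul, mul_zero, add_zero, mul_div_cancel_right₀ _ (hN0 i j)]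
    · change polar Q (ap (m * m') (p i j)) (p j i) / N j i = _
      rw [h1, polar_add_left, polar_smul_left, polar_smul_left, hpp, hpp, if_neg hne',
        if_pos ⟨rfl, rfl⟩, smul_eq_mul, smul_eq_mul, mul_zero, zero_add,
        mul_div_cancel_right₀ _ (hN0 j i)]
  have hsqrot : ∀ {m : GL ι F}, m ∈ C → Rot (m * m) := by
    intro m hm i j hij
    obtain ⟨p1, p2⟩ := hprod hm hm hij
    obtain ⟨p3, p4⟩ := hprod hm hm (Ne.symm hij)
    obtain ⟨e1, e2⟩ := hnorm hm hij
    obtain ⟨e3, -⟩ := hnorm hm (Ne.symm hij)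
    set α := co m i j
    set β := off m i j
    set γ := off m j i
    set δ := co m j i
    have hαδ : α * α = δ * δ := by
      refine mul_right_cancel₀ (mul_ne_zero (hN0 i j) (hN0 j i)) ?_
      linear_combination (α * γ * N i j - β * δ * N j i) * e2 + δ * δ * N j i * e1 -
        α * α * N i j * e3
    refine ⟨by rw [p1, p3]; linear_combination -hαδ, ?_⟩
    rw [p2, p4]
    by_cases hs : α + δ = 0
    · linear_combination (γ * N i j + β * N j i) * hs
    · have hα0 : α ≠ 0 := fun h0 => hs (by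
        have := hαδ
        rw [h0, mul_zero, eq_comm, mul_self_eq_zero] at this
        rw [h0, this, add_zero])
      have hδ : δ = α := (mul_self_eq_mul_self_iff.mp hαδ.symm).resolve_right fun h =>
        hs (by rw [h, add_neg_cancel])
      have h5 : γ * N i j + β * N j i = 0 := by
        refine (mul_eq_zero.mp ?_).resolve_left hα0
        rw [hδ] at e2
        linear_combination e2
      linear_combination (α + δ) * h5
  have hconj : ∀ {m : GL ι F}, m ∈ C → ∀ k i j, i ≠ j →
      co (t k * m * t k) i j = co m i j ∧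
        off (t k * m * t k) i j = (sgn k i * sgn k j : F) * off m i j := by
    intro m hm k i j hij
    have hts : ap (t k) (p i j) = (sgn k i : F) • p i j := htp k i j
    have h1 : ap (t k * m * t k) (p i j) =
        (sgn k i * sgn k i * co m i j : F) • p i j +
        (sgn k i * sgn k j * off m i j : F) • p j i := by
      rw [ap_mul, ap_mul, hts, ap_smul, hexp hm hij, smul_add, smul_smul, smul_smul, ap_add,
        ap_smul, ap_smul, htp, htp]
      module
    have hne : ¬ (i = j ∧ j = i) := fun h => hij h.1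
    have hne' : ¬ (j = i ∧ i = j) := fun h => hij h.2
    have hss : (sgn k i : F) * sgn k i = 1 := by simp only [sgn]; split_ifs <;> ring
    constructor
    · change polar Q (ap (t k * m * t k) (p i j)) (p i j) / N i j = _
      rw [h1, polar_add_left, polar_smul_left, polar_smul_left, hpp, hpp, if_pos ⟨rfl, rfl⟩,
        if_neg hne, smul_eq_mul, smul_eq_mul, mul_zero, add_zero,
        mul_div_cancel_right₀ _ (hN0 i j), hss, one_mul]
    · change polar Q (ap (t k * m * t k) (p i j)) (p j i) / N j i = _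
      rw [h1, polar_add_left, polar_smul_left, polar_smul_left, hpp, hpp, if_neg hne',
        if_pos ⟨rfl, rfl⟩, smul_eq_mul, smul_eq_mul, mul_zero, zero_add,
        mul_div_cancel_right₀ _ (hN0 j i)]
  have hrot_conj : ∀ {m : GL ι F}, m ∈ C → Rot m → ∀ k, Rot (t k * m * t k) := by
    intro m hm hr k i j hij
    obtain ⟨p1, p2⟩ := hconj hm k i j hij
    obtain ⟨p3, p4⟩ := hconj hm k j i (Ne.symm hij)
    obtain ⟨r1, r2⟩ := hr i j hij
    rw [p1, p2, p3, p4]
    exact ⟨r1, by linear_combination (sgn k i * sgn k j : F) * r2⟩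
  have hcommute : ∀ {m m' : GL ι F}, m ∈ C → m' ∈ C → Rot m → Rot m' → m * m' = m' * m := by
    intro m m' hm hm' hr hr'
    refine mul_inv_eq_one.mp (hK _ ⟨mul_mem (mul_mem hm hm') (inv_mem (mul_mem hm' hm)),
      fun i j hij => ?_⟩)
    have hagree : ∀ i j, i ≠ j → ap (m * m') (p i j) = ap (m' * m) (p i j) := fun i j hij => by
      obtain ⟨p1, p2⟩ := hprod hm hm' hij
      obtain ⟨q1, q2⟩ := hprod hm' hm hij
      obtain ⟨r1, r2⟩ := hr i j hij
      obtain ⟨s1, s2⟩ := hr' i j hij
      rw [hexp (mul_mem hm hm') hij, hexp (mul_mem hm' hm) hij, p1, p2, q1, q2, r1, s1]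
      have h3 : off m' i j * off m j i = off m i j * off m' j i := by
        refine mul_right_cancel₀ (hN0 i j) ?_
        linear_combination off m' i j * r2 - off m i j * s2
      rw [h3]
      module
    have hm'' := mul_mem hm' hm
    rw [ap_mul, hexp (inv_mem hm'') hij, ap_add, ap_smul, ap_smul, hagree i j hij,
      hagree j i (Ne.symm hij), ← ap_smul, ← ap_smul, ← ap_add, ← hexp (inv_mem hm'') hij,
      ap_ap_inv]
  have h8 : ∀ m ∈ C, m ^ 2 ^ 3 = 1 := by
    intro m hm
    have hr := hsqrot hm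
    set r := m * m with hrdef
    have hrC : r ∈ C := mul_mem hm hm
    have h4 : r ^ 4 = 1 := by
      refine hK _ ⟨pow_mem hrC 4, fun i j hij => ?_⟩
      obtain ⟨k, hki, hkj⟩ : ∃ k : Fin 3, i ≠ k ∧ j ≠ k := by revert i j; decide
      set r' := t k * r * t k with hr'
      have hr'C : r' ∈ C := mul_mem (mul_mem (htC k) hrC) (htC k)
      have hcm := hcommute hrC hr'C hr (hrot_conj hrC hr k)
      have hst : (r * r') * t k = t k * (r * r') := by
        rw [hcm, hr']
        calc t k * r * t k * r * t k = t k * (r * (t k * r * t k)) := by simp only [mul_assoc]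
          _ = t k * (t k * r * t k * r) := by rw [← hr', hcm]
      obtain ⟨α, β, hαβ, hα, hβ⟩ := hdiag (mul_mem hrC hr'C) k hst
      have hs2 : (r * r') * (r * r') = 1 := hgl fun i j => by
        rw [ap_mul, hαβ, ap_smul, hαβ, smul_smul, ap_one,
          show α i * β j * (α i * β j) = (α i * α i) * (β j * β j) by ring, hα, hβ, one_mul,
          one_smul]
      obtain ⟨c1, c2⟩ := hconj hrC k i j hij
      obtain ⟨c3, c4⟩ := hconj hrC k j i (Ne.symm hij)
      have hsame : ∀ i' j', (i' = i ∧ j' = j ∨ i' = j ∧ j' = i) →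
          ap r' (p i' j') = ap r (p i' j') := by
        intro i' j' h
        have hs1 : (sgn k i : F) = -1 := if_neg hki
        have hs3 : (sgn k j : F) = -1 := if_neg hkj
        rcases h with ⟨rfl, rfl⟩ | ⟨rfl, rfl⟩
        · rw [hexp hr'C hij, hexp hrC hij, c1, c2, hs1, hs3]; simp
        · rw [hexp hr'C (Ne.symm hij), hexp hrC (Ne.symm hij), c3, c4, hs1, hs3]; simp
      have hrr : ∀ i' j', (i' = i ∧ j' = j ∨ i' = j ∧ j' = i) →
          ap (r * r') (p i' j') = ap (r * r) (p i' j') := fun i' j' h => by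
        rw [ap_mul, hsame i' j' h, ← ap_mul]
      have hrC2 := mul_mem hrC hrC
      rw [show r ^ 4 = r * r * (r * r) by simp [pow_succ, mul_assoc], ap_mul, hexp hrC2 hij,
        ap_add, ap_smul, ap_smul, ← hrr i j (Or.inl ⟨rfl, rfl⟩), ← hrr j i (Or.inr ⟨rfl, rfl⟩),
        ← ap_smul, ← ap_smul, ← ap_add, ← hexp hrC2 hij, ← hrr i j (Or.inl ⟨rfl, rfl⟩), ← ap_mul,
        hs2, ap_one]
    rw [show (2 : ℕ) ^ 3 = 2 * 4 by norm_num, pow_mul, _root_.sq, h4]
  -- the two-group lies in the stabiliser
  have h2grp : IsPGroup 2 C := fun m => ⟨3, Subtype.ext (by simpa using h8 m m.2)⟩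
  haveI : Fact (Nat.Prime 2) := ⟨Nat.prime_two⟩
  haveI := h2grp.isNilpotent
  have htop : (TT e P).subgroupOf C = ⊤ := by
    by_contra hne
    obtain ⟨n, hn, hn'⟩ := SetLike.exists_of_lt
      (Group.normalizerCondition_of_isNilpotent (G := C) _ (lt_top_iff_ne_top.mpr hne))
    refine hn' (Subgroup.mem_subgroupOf.mpr ?_)
    have h1 := (Subgroup.mem_normalizer_iff.mp hn ⟨t 0, htC 0⟩).mp
      (Subgroup.mem_subgroupOf.mpr (kron_mem_TT _ _))
    exact hT.conj_root hO (hA.norm 0) (hsq 0) (hmemC.mp n.2).1 (by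
      simpa [Subgroup.mem_subgroupOf, ht'] using h1)
  exact Subgroup.subgroupOf_eq_top.mp htop (hmemC.mpr ⟨hgM, hg⟩)

end Data

end CfsgLib.Geometric.TSquare
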