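import Cfsg.Agent.Lib.Geometric.Orth.TensorSquare.Four
import Cfsg.Agent.Lib.Geometric.Dihedral

/-!
An overgroup of the stabiliser of the tensor square decomposition in the commutator subgroup of the
isometry group lies in the stabiliser.
-/

set_option autoImplicit false
set_option linter.unusedSectionVars false
set_option linter.unusedSimpArgs false
set_option linter.style.haveILetI false

namespace CfsgLib.Geometric.TSquare

open Matrix Tensor QuadraticMap OrthTensor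

variable {ι : Type} [Fintype ι] [DecidableEq ι] {F : Type*} [Field F] [Finite F]
variable {e : ι ≃ Fin 3 × Fin 3} {P : GL ι F} {Q : QuadraticForm F (ι → F)} {c : F}

lemma isSquare_mul_of_not {a b : F} (ha : a ≠ 0) (hb : b ≠ 0) (ha' : ¬ IsSquare a)
    (hb' : ¬ IsSquare b) : IsSquare (a * b) := by
  classical
  have := Fintype.ofFinite F
  rw [← quadraticChar_one_iff_isSquare (mul_ne_zero ha hb), map_mul,
    quadraticChar_neg_one_iff_not_isSquare.mpr ha', quadraticChar_neg_one_iff_not_isSquare.mpr hb']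
  norm_num

namespace Data

variable (hT : Data Q e P c) {M : Subgroup (GL ι F)}
include hT

/-- An involution of the stabiliser of trace one is a product of two half-turns. -/
lemma two_ht_of_trace {g : GL ι F} (hg : g ∈ TT e P) (hΩ : g ∈ Cfsg.Geo.omegaGL (⇑Q))
    (h2 : g * g = 1) (htr : ((g : GL ι F) : Matrix ι ι F).trace = 1) :
    ∃ x y, x ⬝ᵥ x ≠ 0 ∧ y ⬝ᵥ y ≠ 0 ∧ g = kron e P (ht x) (ht y) := by
  rcases hT.normal_form hg hΩ with ⟨a, b, ha, hb, rfl⟩ | ⟨a, b, ha, hb, rfl⟩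
  · by_cases h1 : kron e P a b = 1
    · exfalso
      rw [h1, Units.val_one, Matrix.trace_one, hT.card_nine] at htr
      push_cast at htr
      exact hT.two (by
        have h8 : (2 : F) * 2 * 2 = 0 := by linear_combination htr
        simpa using h8)
    rcases hT.invol_cases ha hb h2 h1 with ⟨x, hx, rfl, rfl⟩ | ⟨y, hy, rfl, rfl⟩ |
      ⟨x, y, hx, hy, rfl, rfl⟩
    · exfalso
      rw [trace_kron, trace_ht hx, trace_one_three] at htr
      exact hT.two_two (by linear_combination -htr)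
    · exfalso
      rw [trace_kron, trace_ht hy, trace_one_three] at htr
      exact hT.two_two (by linear_combination -htr)
    · exact ⟨x, y, hx, hy, rfl⟩
  · exfalso
    rw [trace_kron_sw] at htr
    have hk : kron e P (a * b) (b * a) = 1 := by
      rw [kron_mul', ← conj_sw_kron a b, ← h2]
      simp only [mul_assoc]
    set u : Fin 3 → F := ap (b * a) (Pi.single 0 1) with hu
    obtain ⟨j, hj⟩ : ∃ j, u j ≠ 0 := Function.ne_iff.mp (ap_ne_zero _ (by simp))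
    set k := (Pi.single 0 1 : Fin 3 → F) j / u j with hk'
    have hab : ((a * b : GL (Fin 3) F) : Matrix (Fin 3) (Fin 3) F) = k • 1 := by
      refine Matrix.ext_of_mulVec_single fun l => ?_
      rw [← ap_def, Matrix.smul_mulVec, Matrix.one_mulVec]
      funext i
      have h3 : pt e P (ap (a * b) (Pi.single l 1)) u =
          pt e P (Pi.single l 1) (Pi.single 0 1) := by rw [hu, ← ap_kron, hk, ap_one]
      have h4 : ap (a * b) (Pi.single l 1) i * u j =
          (Pi.single l 1 : Fin 3 → F) i * (Pi.single 0 1 : Fin 3 → F) j :=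
        congrFun ((coords e P).injective h3) (i, j)
      rw [Pi.smul_apply, smul_eq_mul, hk']
      field_simp
      linear_combination h4
    have hkk : k * k = 1 := by
      have h5 := O3_dot (mul_mem (mem_SO3.mp ha).1 hb) (Pi.single 0 1) (Pi.single 0 1)
      rw [ap_def, hab, Matrix.smul_mulVec, Matrix.one_mulVec, smul_dotProduct, dotProduct_smul,
        smul_eq_mul, smul_eq_mul, ← mul_assoc] at h5
      simpa using h5
    rw [← Units.val_mul, hab, Matrix.trace_smul, Matrix.trace_one, Fintype.card_fin, smul_eq_mul]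
      at htr
    push_cast at htr
    rcases mul_self_eq_one_iff.mp hkk with rfl' | rfl'
    · exact hT.two (by rw [rfl'] at htr; linear_combination htr)
    · exact hT.two_two (by rw [rfl'] at htr; linear_combination -htr)

/-- The dihedral step. -/
theorem dihedral (hO : hT.Over M) {C : Subgroup (GL ι F)} (hC : C ≤ M) {w a b : Fin 3 → F}
    (hw : w ⬝ᵥ w ≠ 0) (hws : IsSquare (w ⬝ᵥ w)) (ha : a ⬝ᵥ a ≠ 0) (hb : b ⬝ᵥ b ≠ 0)
    (htC : kron e P (ht w) 1 ∈ C) (hyC : kron e P (ht a) (ht b) ∈ C)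
    (hz : ∀ x x', x ⬝ᵥ x ≠ 0 → x' ⬝ᵥ x' ≠ 0 → kron e P (ht x) (ht x') ∈ C →
      (∃ d ∈ C, d * kron e P (ht a) (ht b) * d⁻¹ = kron e P (ht x) (ht x')) →
      ∀ z ∈ Subgroup.zpowers (kron e P (ht w) 1 * kron e P (ht x) (ht x')), z ≠ 1 → z * z = 1 →
        ∀ k ∈ C, k * z = z * k → k ∈ TT e P) {g : GL ι F} (hg : g ∈ C) :
    g * kron e P (ht a) (ht b) * g⁻¹ ∈ TT e P := by
  set t := kron e P (ht w) (1 : GL (Fin 3) F)
  set y := kron e P (ht a) (ht b)
  haveI : Finite C := inferInstance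
  have htrt : ((t : GL ι F) : Matrix ι ι F).trace = -3 := by
    rw [trace_kron, trace_ht hw, trace_one_three]; ring
  have htry : ((y : GL ι F) : Matrix ι ι F).trace = 1 := by
    rw [trace_kron, trace_ht ha, trace_ht hb]; ring
  have hyT : y ∈ TT e P := kron_mem_TT _ _
  have key := conj_mem_of_involutions (G := C) (H := (TT e P).subgroupOf C)
    (p := ⟨t, htC⟩) (x := ⟨y, hyC⟩) (Subgroup.mem_subgroupOf.mpr (kron_mem_TT _ _))
    (Subgroup.mem_subgroupOf.mpr hyT) (Subtype.ext (kron_ht_one_sq w))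
    (Subtype.ext (kron_ht_sq a b)) ?_ ?_ ?_ ⟨g, hg⟩
  · simpa [Subgroup.mem_subgroupOf] using key
  · intro k hk
    refine Subgroup.mem_subgroupOf.mpr (hT.conj_root hO hw hws (hC k.2) ?_)
    simpa [Subgroup.mem_subgroupOf] using hk
  · intro k _ heq
    have h1 := congrArg (fun x : C => ((x : GL ι F) : Matrix ι ι F).trace) heq
    simp only [Subgroup.coe_mul, Subgroup.coe_inv, Units.val_mul, Matrix.trace_units_conj, htrt,
      htry] at h1
    exact hT.two_two (by linear_combination -h1)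
  · intro d hd z hzm hz1 hz2 k hk
    have hd' : (d : GL ι F) * y * (d : GL ι F)⁻¹ ∈ TT e P := by
      simpa [Subgroup.mem_subgroupOf] using hd
    have hdC : (d : GL ι F) * y * (d : GL ι F)⁻¹ ∈ C :=
      mul_mem (mul_mem d.2 hyC) (inv_mem d.2)
    obtain ⟨x, x', hx, hx', hxx⟩ := hT.two_ht_of_trace hd' (hO.le (hC hdC))
      (by rw [conj_mul, kron_ht_sq, mul_one, mul_inv_cancel])
      (by rw [Units.val_mul, Units.val_mul, Matrix.trace_units_conj, htry])
    refine Subgroup.mem_subgroupOf.mpr (hz x x' hx hx' (hxx ▸ hdC) ⟨d, d.2, hxx⟩ z ?_ ?_ ?_ k k.2 ?_)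
    · obtain ⟨n, hn⟩ := Subgroup.mem_zpowers_iff.mp hzm
      refine Subgroup.mem_zpowers_iff.mpr ⟨n, ?_⟩
      rw [← hn, ← hxx]
      simp
    · exact fun h => hz1 (Subtype.ext h)
    · exact congrArg Subtype.val hz2
    · have h3 := congrArg Subtype.val hk
      simp only [Subgroup.coe_mul, Subgroup.coe_inv] at h3
      exact mul_inv_eq_iff_eq_mul.mp h3

omit hT [Finite F] in
/-- Powers of a product of factorwise maps act factorwise. -/
lemma kron_of_zpowers {u v : GL (Fin 3) F} {z : GL ι F}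
    (hz : z ∈ Subgroup.zpowers (kron e P u v)) :
    ∃ n : ℤ, z = kron e P (u ^ n) (v ^ n) := by
  obtain ⟨n, rfl⟩ := Subgroup.mem_zpowers_iff.mp hz
  refine ⟨n, ?_⟩
  let φ : GL (Fin 3) F × GL (Fin 3) F →* GL ι F :=
    MonoidHom.mk' (fun x => kron e P x.1 x.2) fun x x' => kron_mul' _ _ _ _
  exact (map_zpow φ (u, v) n).symm

/-- The mixed step inside the centraliser of a product of two half-turns. -/
theorem mixed_step (hO : hT.Over M) {p q w a w' : Fin 3 → F} (hp : p ⬝ᵥ p ≠ 0)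
    (hq : q ⬝ᵥ q ≠ 0) (hw : w ⬝ᵥ w = 1) (hwp : w ⬝ᵥ p = 0) (ha : a ⬝ᵥ a ≠ 0)
    (has : IsSquare (a ⬝ᵥ a)) (hap : a ⬝ᵥ p = 0) (hw' : w' ⬝ᵥ w' = 1) (hwq : w' ⬝ᵥ q = 0)
    (hcase : ∀ i x, i ⬝ᵥ i ≠ 0 → x ⬝ᵥ x ≠ 0 → i ⬝ᵥ p = 0 → x ⬝ᵥ q = 0 →
      ht i * ht w = ht w * ht i → ∀ k ∈ M,
      k * kron e P (ht p) (ht q) = kron e P (ht p) (ht q) * k →
      k * kron e P (ht i) (ht x) = kron e P (ht i) (ht x) * k → k ∈ TT e P)
    {g : GL ι F} (hgM : g ∈ M)
    (hgz : g * kron e P (ht p) (ht q) = kron e P (ht p) (ht q) * g) :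
    ∃ x x', x ⬝ᵥ x ≠ 0 ∧ x' ⬝ᵥ x' ≠ 0 ∧ x ⬝ᵥ p = 0 ∧ x' ⬝ᵥ q = 0 ∧
      g * kron e P (ht a) (ht w') * g⁻¹ = kron e P (ht x) (ht x') := by
  have h2 := hT.two
  set Z := kron e P (ht p) (ht q) with hZ
  set C : Subgroup (GL ι F) := M ⊓ Subgroup.centralizer {Z} with hC
  have hmemC : ∀ {m : GL ι F}, m ∈ C ↔ m ∈ M ∧ m * Z = Z * m := fun {m} => by
    rw [hC, Subgroup.mem_inf, Subgroup.mem_centralizer_singleton_iff]
  have hw0 : w ⬝ᵥ w ≠ 0 := by rw [hw]; exact one_ne_zero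
  have hws : IsSquare (w ⬝ᵥ w) := by rw [hw]; exact IsSquare.one
  have hw'0 : w' ⬝ᵥ w' ≠ 0 := by rw [hw']; exact one_ne_zero
  have hw's : IsSquare (w' ⬝ᵥ w') := by rw [hw']; exact IsSquare.one
  have hcomm : ∀ {i p : Fin 3 → F}, i ⬝ᵥ i ≠ 0 → p ⬝ᵥ p ≠ 0 → i ⬝ᵥ p = 0 →
      ht i * ht p = ht p * ht i := fun {i p} hi hp h => by
    rw [ht_mul_ht hi hp h, ht_mul_ht hp hi (by rw [dotProduct_comm, h]), ← cross_anticomm,
      show -(p ⨯₃ i) = (-1 : F) • (p ⨯₃ i) by simp, ht_smul (by simp)]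
  set t := kron e P (ht w) (1 : GL (Fin 3) F) with ht'
  set y := kron e P (ht a) (ht w') with hy
  have htC : t ∈ C := hmemC.mpr ⟨hO.mem _ (kron_mem_TT _ _) (hT.ht_one_omega hw0 hws), by
    rw [ht', hZ, ← kron_mul', ← kron_mul', hcomm hw0 hp hwp, one_mul, mul_one]⟩
  have hyC : y ∈ C := hmemC.mpr ⟨hO.mem _ (kron_mem_TT _ _) (hT.ht_ht_omega ha has hw'0 hw's), by
    rw [hy, hZ, ← kron_mul', ← kron_mul', hcomm ha hp hap, hcomm hw'0 hq hwq]⟩
  -- the shape of the conjugates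
  have hshape : ∀ {x x'}, x ⬝ᵥ x ≠ 0 → x' ⬝ᵥ x' ≠ 0 → ∀ {d : GL ι F}, d ∈ C →
      d * y * d⁻¹ = kron e P (ht x) (ht x') → x ⬝ᵥ p = 0 ∧ x' ⬝ᵥ q = 0 := by
    intro x x' hx hx' d hd hdy
    have hdZ := (hmemC.mp hd).2
    have hyZ := (hmemC.mp hyC).2
    have hcz : kron e P (ht x) (ht x') * Z = Z * kron e P (ht x) (ht x') := by
      rw [← hdy]
      have hdi : d⁻¹ * Z = Z * d⁻¹ := by
        rw [inv_mul_eq_iff_eq_mul, ← mul_assoc, hdZ, mul_inv_cancel_right]
      rw [mul_assoc, hdi, ← mul_assoc, mul_assoc d, hyZ, ← mul_assoc, hdZ]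
      simp only [mul_assoc]
    rw [hZ, ← kron_mul', ← kron_mul'] at hcz
    obtain ⟨e1, e2⟩ := kron_inj h2 (mul_mem (ht_mem_SO3 h2 hx) (ht_mem_SO3 h2 hp))
      (mul_mem (ht_mem_SO3 h2 hx') (ht_mem_SO3 h2 hq))
      (mul_mem (ht_mem_SO3 h2 hp) (ht_mem_SO3 h2 hx))
      (mul_mem (ht_mem_SO3 h2 hq) (ht_mem_SO3 h2 hx')) hcz
    have htr : ((Z * kron e P (ht x) (ht x') : GL ι F) : Matrix ι ι F).trace = 1 := by
      rw [← hdy, show Z * (d * y * d⁻¹) = d * (Z * y) * d⁻¹ by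
        rw [← mul_assoc, ← mul_assoc, ← hdZ]; simp only [mul_assoc]]
      rw [Units.val_mul, Units.val_mul, Matrix.trace_units_conj, hZ, hy, ← kron_mul', trace_kron,
        ht_mul_ht hp ha (by rw [dotProduct_comm, hap]),
        ht_mul_ht hq hw'0 (by rw [dotProduct_comm, hwq]), trace_ht, trace_ht]
      · ring
      · rw [cross_dot_cross, dotProduct_comm q w', hwq]; simp [hq, hw'0]
      · rw [cross_dot_cross, dotProduct_comm p a, hap]; simp [hp, ha]
    rw [hZ, ← kron_mul'] at htr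
    have hnc : ∀ {x p : Fin 3 → F}, x ⬝ᵥ x ≠ 0 → p ⬝ᵥ p ≠ 0 → ht x * ht p = ht p * ht x →
        x ⬝ᵥ p = 0 ∨ ht p * ht x = 1 := fun {x p} hx hp h => by
      rcases orth_or_prop h2 hx hp h with h | ⟨s, hs, rfl⟩
      · exact Or.inl h
      · exact Or.inr (by rw [ht_smul hs, ht_mul_self])
    have h8 : (8 : F) ≠ 0 := by
      rw [show (8 : F) = 2 * 2 * 2 by norm_num]
      exact mul_ne_zero (mul_ne_zero h2 h2) h2
    have hbad : ∀ {i p : Fin 3 → F}, i ⬝ᵥ i ≠ 0 → p ⬝ᵥ p ≠ 0 → ht i * ht p = ht p * ht i →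
        3 * ((ht p * ht i : GL (Fin 3) F) : Matrix (Fin 3) (Fin 3) F).trace ≠ 1 := by
      intro i p hi hp h heq
      rcases hnc hi hp h with h' | h'
      · rw [ht_mul_ht hp hi (by rw [dotProduct_comm, h']), trace_ht] at heq
        · exact hT.two_two (by linear_combination -heq)
        · rw [cross_dot_cross, dotProduct_comm p i, h']; simp [hi, hp]
      · rw [h', trace_one_three] at heq
        exact h8 (by linear_combination heq)
    constructor
    · refine (hnc hx hp e1).resolve_right fun h => hbad hx' hq e2 ?_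
      rw [h, trace_kron, trace_one_three] at htr
      exact htr
    · refine (hnc hx' hq e2).resolve_right fun h => hbad hx hp e1 ?_
      rw [h, trace_kron, trace_one_three, mul_comm] at htr
      exact htr
  have hgC : g ∈ C := hmemC.mpr ⟨hgM, hgz⟩
  have hmain : g * y * g⁻¹ ∈ TT e P := by
    refine hT.dihedral hO inf_le_left hw0 hws ha hw'0 htC hyC ?_ hgC
    intro x x' hx hx' hxC ⟨d, hd, hdy⟩ z hzm hz1 hz2 k hkC hkz
    obtain ⟨hxp, hxq⟩ := hshape hx hx' hd hdy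
    have hkM := (hmemC.mp hkC).1
    rw [← kron_mul', one_mul] at hzm
    obtain ⟨n, rfl⟩ := kron_of_zpowers hzm
    set u := (ht w * ht x) ^ n with hu
    set v := (ht x') ^ n with hv
    have huS : u ∈ SO3 F :=
      zpow_mem (mul_mem (ht_mem_SO3 h2 hw0) (ht_mem_SO3 h2 hx)) _
    have hvS : v ∈ SO3 F := zpow_mem (ht_mem_SO3 h2 hx') _
    rcases hT.invol_cases huS hvS hz2 hz1 with ⟨i, hi, e1, e2⟩ | ⟨j, hj, e1, e2⟩ |
      ⟨i, j, hi, hj, e1, e2⟩
    · exact hT.root_cent hO hi hkM (by rwa [e1, e2] at hkz)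
    · exact hT.root_cent' hO hj hkM (by rwa [e1, e2] at hkz)
    have hvx : ht j = ht x' := by
      rw [← e2, hv]
      rcases Int.even_or_odd n with ⟨m, rfl⟩ | ⟨m, rfl⟩
      · exfalso
        apply ht_ne_one h2 j
        rw [← e2, hv, _root_.zpow_add, ← (Commute.refl (ht x')).mul_zpow, ht_mul_self, _root_.one_zpow]
      · rw [_root_.zpow_add, _root_.zpow_one, _root_.zpow_mul, zpow_two, ht_mul_self, _root_.one_zpow, one_mul]
    rw [e1, e2, hvx] at hkz
    have hip : ht i * ht p = ht p * ht i := by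
      rw [← e1, hu]
      refine (Commute.zpow_left ?_ n).eq
      exact Commute.mul_left (hcomm hw0 hp hwp) (hcomm hx hp hxp)
    have hiw : ht w * ht i * (ht w)⁻¹ = ht i := by
      have hinv : ht i = (ht i)⁻¹ := (ht_inv i).symm
      conv_rhs => rw [hinv, ← e1, hu, ← _root_.inv_zpow]
      conv_lhs => rw [← e1, hu, ← conj_zpow]
      congr 1
      rw [_root_.mul_inv_rev, ht_inv x, ← mul_assoc, ht_mul_self, one_mul]
    rcases orth_or_prop h2 hi hp hip with hio | ⟨s, hs, hip'⟩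
    · exact hcase i x' hi hx' hio hxq (mul_inv_eq_iff_eq_mul.mp hiw).symm k hkM
        (hmemC.mp hkC).2 hkz
    · rw [hip', ht_smul hs] at hkz
      refine hT.root_cent' hO (x := q ⨯₃ x') ?_ hkM ?_
      · rw [cross_dot_cross, dotProduct_comm q x', hxq]; simp [hq, hx']
      · have hk' := (hmemC.mp hkC).2
        rw [← ht_mul_ht hq hx' (by rw [dotProduct_comm, hxq]), ← ht_mul_self p, kron_mul', ← hZ,
          ← mul_assoc, hk', mul_assoc, hkz, ← mul_assoc]
  obtain ⟨x, x', hx, hx', hxx⟩ := hT.two_ht_of_trace hmain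
    (hO.le (mul_mem (mul_mem hgM (hmemC.mp hyC).1) (inv_mem hgM)))
    (by rw [conj_mul, hy, kron_ht_sq, mul_one, mul_inv_cancel])
    (by rw [Units.val_mul, Units.val_mul, Matrix.trace_units_conj, hy, trace_kron, trace_ht ha,
      trace_ht hw'0]; ring)
  obtain ⟨h1, h3⟩ := hshape hx hx' hgC hxx
  exact ⟨x, x', hx, hx', h1, h3, hxx⟩

/-- The centraliser of a product of two half-turns, the first about a vector of square norm. -/
theorem mixed_cent_sq (hO : hT.Over M) {p q : Fin 3 → F} (hp : p ⬝ᵥ p ≠ 0)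
    (hps : IsSquare (p ⬝ᵥ p)) (hq : q ⬝ᵥ q ≠ 0) {g : GL ι F} (hgM : g ∈ M)
    (hgz : g * kron e P (ht p) (ht q) = kron e P (ht p) (ht q) * g) : g ∈ TT e P := by
  have h2 := hT.two
  obtain ⟨w, hwp, hw⟩ := exists_unit_perp h2 hp
  obtain ⟨w', hwq, hw'⟩ := exists_unit_perp h2 hq
  have hw0 : w ⬝ᵥ w ≠ 0 := by rw [hw]; exact one_ne_zero
  have hws : IsSquare (w ⬝ᵥ w) := by rw [hw]; exact IsSquare.one
  have hpw : p ⬝ᵥ w = 0 := by rw [dotProduct_comm, hwp]
  set p3 := w ⨯₃ p with hp3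
  have hp30 : p3 ⬝ᵥ p3 = p ⬝ᵥ p := by rw [hp3, cross_dot_cross, hwp, hw]; ring
  have hcase : ∀ i x, i ⬝ᵥ i ≠ 0 → x ⬝ᵥ x ≠ 0 → i ⬝ᵥ p = 0 → x ⬝ᵥ q = 0 →
      ht i * ht w = ht w * ht i → ∀ k ∈ M,
      k * kron e P (ht p) (ht q) = kron e P (ht p) (ht q) * k →
      k * kron e P (ht i) (ht x) = kron e P (ht i) (ht x) * k → k ∈ TT e P := by
    intro i x hi hx hip hxq hiw k hk hkz hkz'
    have his : IsSquare (i ⬝ᵥ i) := by
      rcases orth_or_prop h2 hi hw0 hiw with hio | ⟨s, -, rfl⟩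
      · have h := decomp_orth hw0 hp hwp i
        rw [hio, hip, zero_div, zero_div, zero_smul, zero_smul, zero_add, zero_add, ← hp3] at h
        rw [h, smul_dotProduct, dotProduct_smul, hp30, smul_eq_mul, smul_eq_mul, ← mul_assoc]
        exact (IsSquare.mul_self _).mul hps
      · rw [smul_dotProduct, dotProduct_smul, hw, smul_eq_mul, smul_eq_mul, mul_one]
        exact IsSquare.mul_self _
    have hpi : p ⬝ᵥ i = 0 := by rw [dotProduct_comm, hip]
    have hqx : q ⬝ᵥ x = 0 := by rw [dotProduct_comm, hxq]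
    have hpic : p ⨯₃ i ⬝ᵥ p ⨯₃ i = (p ⬝ᵥ p) * (i ⬝ᵥ i) := by
      rw [cross_dot_cross, hpi]; ring
    have hqxc : q ⨯₃ x ⬝ᵥ q ⨯₃ x = (q ⬝ᵥ q) * (x ⬝ᵥ x) := by
      rw [cross_dot_cross, hqx]; ring
    refine hT.four_cent hO
      (Frame.mk' hp hi (z := p ⨯₃ i) (by rw [hpic]; exact mul_ne_zero hp hi) hpi
        (dot_self_cross _ _) (dot_cross_self _ _))
      (Frame.mk' hq hx (z := q ⨯₃ x) (by rw [hqxc]; exact mul_ne_zero hq hx) hqx
        (dot_self_cross _ _) (dot_cross_self _ _)) ?_ hk ?_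
    · intro l
      fin_cases l
      · exact hps
      · exact his
      · change IsSquare (p ⨯₃ i ⬝ᵥ p ⨯₃ i)
        rw [hpic]; exact hps.mul his
    · intro l
      fin_cases l
      · exact hkz
      · exact hkz'
      · change k * kron e P (ht (p ⨯₃ i)) (ht (q ⨯₃ x)) = kron e P (ht (p ⨯₃ i)) (ht (q ⨯₃ x)) * k
        rw [← ht_mul_ht hp hi hpi, ← ht_mul_ht hq hx hqx, kron_mul', ← mul_assoc, hkz, mul_assoc,
          hkz', ← mul_assoc]
  obtain ⟨x, x', -, -, -, -, e1⟩ := hT.mixed_step hO hp hq hw hwp hw0 hws hwp hw' hwq hcase hgM hgz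
  obtain ⟨y, y', -, -, -, -, e2⟩ := hT.mixed_step hO hp hq hw hwp (a := p3)
    (by rw [hp30]; exact hp) (by rw [hp30]; exact hps) (dot_cross_right w p) hw' hwq hcase hgM hgz
  refine hT.conj_root hO hp hps hgM ?_
  have hprod : kron e P (ht w) (ht w') * kron e P (ht p3) (ht w') = kron e P (ht p) 1 := by
    rw [← kron_mul', ht_mul_self, ht_mul_ht hw0 (by rw [hp30]; exact hp) (dot_self_cross w p),
      ← cross_anticomm, cross_cross']
    simp only [hwp, hpw, hw, zero_smul, one_smul, zero_sub, sub_zero, neg_neg]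
    try rw [show -p = (-1 : F) • p by simp, ht_smul (by simp)]
  rw [← hprod, show g * (kron e P (ht w) (ht w') * kron e P (ht p3) (ht w')) * g⁻¹ =
    g * kron e P (ht w) (ht w') * g⁻¹ * (g * kron e P (ht p3) (ht w') * g⁻¹) by group, e1, e2]
  exact mul_mem (kron_mem_TT _ _) (kron_mem_TT _ _)

/-- The centraliser of two products of half-turns about orthogonal axes. -/
theorem two_cent (hO : hT.Over M) {p i q x : Fin 3 → F} (hp : p ⬝ᵥ p ≠ 0) (hi : i ⬝ᵥ i ≠ 0)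
    (hq : q ⬝ᵥ q ≠ 0) (hx : x ⬝ᵥ x ≠ 0) (hpi : p ⬝ᵥ i = 0) (hqx : q ⬝ᵥ x = 0) {k : GL ι F}
    (hk : k ∈ M) (hkz : k * kron e P (ht p) (ht q) = kron e P (ht p) (ht q) * k)
    (hkz' : k * kron e P (ht i) (ht x) = kron e P (ht i) (ht x) * k) : k ∈ TT e P := by
  by_cases hps : IsSquare (p ⬝ᵥ p)
  · exact hT.mixed_cent_sq hO hp hps hq hk hkz
  by_cases his : IsSquare (i ⬝ᵥ i)
  · exact hT.mixed_cent_sq hO hi his hx hk hkz'
  have hpic : p ⨯₃ i ⬝ᵥ p ⨯₃ i = (p ⬝ᵥ p) * (i ⬝ᵥ i) := by rw [cross_dot_cross, hpi]; ring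
  have hqxc : q ⨯₃ x ⬝ᵥ q ⨯₃ x = (q ⬝ᵥ q) * (x ⬝ᵥ x) := by rw [cross_dot_cross, hqx]; ring
  refine hT.mixed_cent_sq hO (p := p ⨯₃ i) (q := q ⨯₃ x) (by rw [hpic]; exact mul_ne_zero hp hi)
    (by rw [hpic]; exact isSquare_mul_of_not hp hi hps his)
    (by rw [hqxc]; exact mul_ne_zero hq hx) hk ?_
  rw [← ht_mul_ht hp hi hpi, ← ht_mul_ht hq hx hqx, kron_mul', ← mul_assoc, hkz, mul_assoc, hkz',
    ← mul_assoc]

/-- The centraliser of a product of two half-turns. -/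
theorem mixed_cent (hO : hT.Over M) {p q : Fin 3 → F} (hp : p ⬝ᵥ p ≠ 0) (hq : q ⬝ᵥ q ≠ 0)
    {g : GL ι F} (hgM : g ∈ M)
    (hgz : g * kron e P (ht p) (ht q) = kron e P (ht p) (ht q) * g) : g ∈ TT e P := by
  have h2 := hT.two
  obtain ⟨w, hwp, hw⟩ := exists_unit_perp h2 hp
  obtain ⟨w', hwq, hw'⟩ := exists_unit_perp h2 hq
  have hw0 : w ⬝ᵥ w ≠ 0 := by rw [hw]; exact one_ne_zero
  have hws : IsSquare (w ⬝ᵥ w) := by rw [hw]; exact IsSquare.one
  have hw'0 : w' ⬝ᵥ w' ≠ 0 := by rw [hw']; exact one_ne_zero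
  have hw's : IsSquare (w' ⬝ᵥ w') := by rw [hw']; exact IsSquare.one
  obtain ⟨x, x', hx, hx', hxp, hxq, hxx⟩ := hT.mixed_step hO hp hq hw hwp hw0 hws hwp hw' hwq
    (fun i x hi hx hip hxq _ k hk hkz hkz' => hT.two_cent hO hp hi hq hx
      (by rw [dotProduct_comm, hip]) (by rw [dotProduct_comm, hxq]) hk hkz hkz') hgM hgz
  refine hT.conj_root hO hw0 hws hgM ?_
  set t := kron e P (ht w) (1 : GL (Fin 3) F) with ht'
  have htM : t ∈ M := hO.mem _ (kron_mem_TT _ _) (hT.ht_one_omega hw0 hws)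
  have hty : t * kron e P (ht w) (ht w') = kron e P (ht w) (ht w') * t := by
    rw [ht', ← kron_mul', ← kron_mul', one_mul, mul_one]
  have htz : t * kron e P (ht p) (ht q) = kron e P (ht p) (ht q) * t := by
    rw [ht', ← kron_mul', ← kron_mul', one_mul, mul_one, ht_mul_ht hw0 hp hwp,
      ht_mul_ht hp hw0 (by rw [dotProduct_comm, hwp]), ← cross_anticomm,
      show -(p ⨯₃ w) = (-1 : F) • (p ⨯₃ w) by simp, ht_smul (by simp)]
  refine hT.two_cent hO hp hx hq hx' (by rw [dotProduct_comm, hxp]) (by rw [dotProduct_comm, hxq])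
    (mul_mem (mul_mem hgM htM) (inv_mem hgM)) ?_ (by rw [← hxx, conj_mul, conj_mul, hty])
  have hz' : g * kron e P (ht p) (ht q) * g⁻¹ = kron e P (ht p) (ht q) := by
    rw [hgz, mul_inv_cancel_right]
  conv_lhs => rw [← hz', conj_mul, htz, ← conj_mul, hz']

/-- An overgroup of the stabiliser lies in it. -/
theorem le_TT (hO : hT.Over M) : M ≤ TT e P := by
  intro g hg
  have h2 := hT.two
  set e0 : Fin 3 → F := Pi.single 0 1 with he0
  set e1 : Fin 3 → F := Pi.single 1 1 with he1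
  set e2 : Fin 3 → F := Pi.single 2 1 with he2
  have n0 : e0 ⬝ᵥ e0 = 1 := by simp [e0]
  have n1 : e1 ⬝ᵥ e1 = 1 := by simp [e1]
  have n2 : e2 ⬝ᵥ e2 = 1 := by simp [e2]
  have hu : ∀ {x : Fin 3 → F}, x ⬝ᵥ x = 1 → x ⬝ᵥ x ≠ 0 ∧ IsSquare (x ⬝ᵥ x) := fun h => by
    rw [h]; exact ⟨one_ne_zero, IsSquare.one⟩
  have main : ∀ {a : Fin 3 → F}, a ⬝ᵥ a = 1 → g * kron e P (ht a) (ht e0) * g⁻¹ ∈ TT e P := by
    intro a hna
    refine hT.dihedral hO le_rfl (hu n1).1 (hu n1).2 (hu hna).1 (hu n0).1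
      (hO.mem _ (kron_mem_TT _ _) (hT.ht_one_omega (hu n1).1 (hu n1).2))
      (hO.mem _ (kron_mem_TT _ _) (hT.ht_ht_omega (hu hna).1 (hu hna).2 (hu n0).1 (hu n0).2))
      ?_ hg
    intro x x' hx hx' _ _ z hzm hz1 hz2 k hk hkz
    rw [← kron_mul', one_mul] at hzm
    obtain ⟨n, rfl⟩ := kron_of_zpowers hzm
    rcases hT.invol_cases (zpow_mem (mul_mem (ht_mem_SO3 h2 (hu n1).1) (ht_mem_SO3 h2 hx)) _)
      (zpow_mem (ht_mem_SO3 h2 hx') _) hz2 hz1 with ⟨i, hi, d1, d2⟩ | ⟨j, hj, d1, d2⟩ |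
      ⟨i, j, hi, hj, d1, d2⟩
    · exact hT.root_cent hO hi hk (by rwa [d1, d2] at hkz)
    · exact hT.root_cent' hO hj hk (by rwa [d1, d2] at hkz)
    · exact hT.mixed_cent hO hi hj hk (by rwa [d1, d2] at hkz)
  refine hT.conj_root hO (hu n0).1 (hu n0).2 hg ?_
  have hprod : kron e P (ht e1) (ht e0) * kron e P (ht e2) (ht e0) = kron e P (ht e0) 1 := by
    rw [← kron_mul', ht_mul_self, ht_mul_ht (hu n1).1 (hu n2).1 (by simp [e1, e2])]
    have : e1 ⨯₃ e2 = e0 := by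
      funext l
      fin_cases l <;> simp [cross_apply, e0, e1, e2]
    rw [this]
  rw [← hprod, show g * (kron e P (ht e1) (ht e0) * kron e P (ht e2) (ht e0)) * g⁻¹ =
    g * kron e P (ht e1) (ht e0) * g⁻¹ * (g * kron e P (ht e2) (ht e0) * g⁻¹) by group]
  exact mul_mem (main n1) (main n2)

end Data

end CfsgLib.Geometric.TSquare
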