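import Cfsg.Agent.Lib.Geometric.Orth.TensorSquare.Root

/-!
The radical of the stabiliser of a singular slice meets an overgroup of the stabiliser of a tensor
square in factorwise elements only; elements mapping a singular slice to a singular slice, and
elements conjugating a factorwise unipotent into the factorwise ones, lie in the stabiliser.
-/

set_option autoImplicit false
set_option linter.unusedSectionVars false
set_option linter.unusedSimpArgs false

namespace CfsgLib.Geometric.TSquare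

open Matrix Tensor QuadraticMap OrthTensor

variable {ι : Type} [Fintype ι] [DecidableEq ι] {F : Type*} [Field F]
variable {e : ι ≃ Fin 3 × Fin 3} {P : GL ι F} {Q : QuadraticForm F (ι → F)} {c : F}

namespace Data

variable (hT : Data Q e P c)

/-- An isometry fixing the slice of `u` and moving `v ⊗ y` by `u ⊗ S y`. -/
structure Rad (hT : Data Q e P c) (u v : Fin 3 → F) (g : GL ι F)
    (S : (Fin 3 → F) →ₗ[F] (Fin 3 → F)) : Prop where
  isom : g ∈ Cfsg.isometryGroup F (⇑Q)
  fix : ∀ y, ap g (pt e P u y) = pt e P u y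
  shift : ∀ y, ap g (pt e P v y) = pt e P v y + pt e P u (S y)

variable {M : Subgroup (GL ι F)} {u f v : Fin 3 → F}
include hT

lemma L_eq (z : Fin 3 → F) {X Y : ι → F}
    (h : ∀ y, polar Q X (pt e P z y) = polar Q Y (pt e P z y)) : hT.L z X = hT.L z Y :=
  dotProduct_eq _ _ fun y => by
    have := h y
    rw [hT.polar_right, hT.polar_right] at this
    exact mul_left_cancel₀ hT.c_ne this

lemma decompX (hτ : Trip u f v) (X : ι → F) :
    X = pt e P u (hT.L f X) + pt e P f (hT.L u X) - pt e P v (hT.L v X) := by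
  have h : LinearMap.id = (ptr e P u).comp (hT.L f) + (ptr e P f).comp (hT.L u) -
      (ptr e P v).comp (hT.L v) := ext_pt e P fun x y => by
    simp only [LinearMap.id_apply, LinearMap.sub_apply, LinearMap.add_apply,
      LinearMap.comp_apply, L_pt, ptr_apply, pt_smul_right, ← pt_smul_left]
    rw [← pt_add_left, ← pt_sub_left, ← hτ.decomp x]
  exact LinearMap.congr_fun h X

namespace Rad

variable {g h : GL ι F} {S T : (Fin 3 → F) →ₗ[F] (Fin 3 → F)}

lemma L_u (hg : hT.Rad u v g S) (X : ι → F) : hT.L u (ap g X) = hT.L u X :=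
  hT.L_eq u fun y => by
    conv_lhs => rw [← hg.fix y]
    exact Orth.polar_ap hg.isom _ _

lemma pair_v (hτ : Trip u f v) (hg : hT.Rad u v g S) (y y' : Fin 3 → F) :
    hT.L v (ap g (pt e P f y)) ⬝ᵥ y' = -(y ⬝ᵥ S y') := by
  have h := Orth.polar_ap hg.isom (pt e P f y) (pt e P v y')
  rw [hg.shift, polar_add_right, hT.polar_right, hT.polar_right, hg.L_u hT, L_pt, hτ.fe, one_smul,
    hT.polar_pt, hτ.fv] at h
  refine mul_left_cancel₀ hT.c_ne ?_
  linear_combination h

lemma mul (hg : hT.Rad u v g S) (hh : hT.Rad u v h T) : hT.Rad u v (g * h) (S + T) where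
  isom := mul_mem hg.isom hh.isom
  fix y := by rw [ap_mul, hh.fix, hg.fix]
  shift y := by
    rw [ap_mul, hh.shift, ap_add, hg.shift, hg.fix, LinearMap.add_apply, pt_add_right]
    abel

lemma inv (hg : hT.Rad u v g S) : hT.Rad u v g⁻¹ (-S) where
  isom := inv_mem hg.isom
  fix y := by conv_lhs => rw [← hg.fix y, ap_inv_ap]
  shift y := ap_injective g (by
    rw [ap_ap_inv, ap_add, hg.shift, hg.fix, LinearMap.neg_apply, pt_neg_right]
    abel)

lemma pow (hg : hT.Rad u v g S) (m : ℕ) : hT.Rad u v (g ^ m) (m • S) := by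
  induction m with
  | zero =>
    exact ⟨by simp, fun y => by rw [pow_zero, ap_one], fun y => by
      rw [pow_zero, ap_one, zero_smul, LinearMap.zero_apply, pt_zero_right, add_zero]⟩
  | succ m ih => rw [pow_succ, succ_nsmul]; exact ih.mul hT hg

/-- An element of the radical shifting nothing is central. -/
lemma central (hτ : Trip u f v) (hg : hT.Rad u v g 0) (X : ι → F) :
    ap g X = X + pt e P u (hT.L f (ap g (pt e P f (hT.L u X)))) := by
  have hf : ∀ y, ap g (pt e P f y) = pt e P f y + pt e P u (hT.L f (ap g (pt e P f y))) := by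
    intro y
    have hv : hT.L v (ap g (pt e P f y)) = 0 := dotProduct_eq_zero _ fun y' => by
      rw [hg.pair_v hT hτ, LinearMap.zero_apply, dotProduct_zero, neg_zero]
    conv_lhs => rw [hT.decompX hτ (ap g (pt e P f y)), hv, hg.L_u hT, L_pt, hτ.fe, one_smul,
      pt_zero_right, sub_zero, add_comm]
  have hgv : ∀ y, ap g (pt e P v y) = pt e P v y := fun y => by
    rw [hg.shift, LinearMap.zero_apply, pt_zero_right, add_zero]
  conv_lhs => rw [hT.decompX hτ X, ap_sub, ap_add, hg.fix, hf, hgv]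
  conv_rhs => arg 1; rw [hT.decompX hτ X]
  abel

/-- A central element is given by a vector. -/
lemma exists_cen (hτ : Trip u f v) (hg : hT.Rad u v g 0) :
    ∃ n, ∀ X, ap g X = X + pt e P u (n ⨯₃ hT.L u X) := by
  set K : (Fin 3 → F) →ₗ[F] (Fin 3 → F) :=
    (hT.L f).comp ((apEquiv g).toLinearMap.comp (ptr e P f)) with hK
  have hKval : ∀ y, hT.L f (ap g (pt e P f y)) = K y := fun y => rfl
  have hf : ∀ y, ap g (pt e P f y) = pt e P f y + pt e P u (K y) := fun y => by
    rw [hg.central hT hτ, L_pt, hτ.fe, one_smul, hKval]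
  have hskew : ∀ y y', K y ⬝ᵥ y' + y ⬝ᵥ K y' = 0 := fun y y' => by
    have h := Orth.polar_ap hg.isom (pt e P f y) (pt e P f y')
    rw [hf, hf, polar_add_left, polar_add_right, polar_add_right, hT.polar_pt, hT.polar_pt,
      hT.polar_pt, hT.polar_pt, hτ.ff, hτ.fe, hτ.ef, hτ.ee] at h
    refine mul_left_cancel₀ hT.c_ne ?_
    linear_combination h
  set k : Fin 3 → Fin 3 → F := fun i j => K (Pi.single j 1) i with hk
  have hij : ∀ i j, k i j + k j i = 0 := fun i j => by
    have h := hskew (Pi.single j 1) (Pi.single i 1)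
    simpa [hk] using h
  have hii : ∀ i, k i i = 0 := fun i =>
    (mul_eq_zero.mp ((two_mul (k i i)).trans (hij i i))).resolve_left hT.two
  refine ⟨![k 2 1, k 0 2, k 1 0], fun X => ?_⟩
  rw [hg.central hT hτ X, hKval]
  congr 2
  set y := hT.L u X
  rw [pi_eq_sum_univ' y, Fin.sum_univ_three, map_add, map_add, map_smul, map_smul, map_smul]
  ext i
  have h01 := hij 0 1
  have h02 := hij 0 2
  have h12 := hij 1 2
  fin_cases i <;> simp [cross_apply, ← hk, Pi.single_apply]
  · linear_combination (y 0) * hii 0 + (y 1) * h01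
  · linear_combination (y 1) * hii 1 + (y 2) * h12
  · linear_combination (y 2) * hii 2 + (y 0) * h02

variable [Finite F]

lemma eq_one (hO : hT.Over M) (hτ : Trip u f v) (hgM : g ∈ M) (hg : hT.Rad u v g 0) : g = 1 := by
  obtain ⟨n, hn⟩ := hg.exists_cen hT hτ
  have hn0 := hT.cen_eq_zero hO hτ.ee hτ.e_ne ⟨g, hgM, hn⟩
  exact gl_ext fun X => by
    rw [hn, hn0, map_zero, LinearMap.zero_apply, pt_zero_right, add_zero, ap_one]

/-- Two elements of the radical in `M` commute. -/
lemma comm_shift (hO : hT.Over M) (hτ : Trip u f v) (hgM : g ∈ M) (hhM : h ∈ M)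
    (hg : hT.Rad u v g S) (hh : hT.Rad u v h T) (y : Fin 3 → F) :
    S (hT.L v (ap h (pt e P f y))) = T (hT.L v (ap g (pt e P f y))) := by
  have h0 : hT.Rad u v ((g * h) * (h * g)⁻¹) 0 := by
    have := (hg.mul hT hh).mul hT ((hh.mul hT hg).inv hT)
    rwa [show S + T + -(T + S) = 0 by abel] at this
  have he := eq_one hT hO hτ (mul_mem (mul_mem hgM hhM) (inv_mem (mul_mem hhM hgM))) h0
  have hgh : g * h = h * g := mul_inv_eq_one.mp he
  have key : ∀ {g h : GL ι F} {S T : (Fin 3 → F) →ₗ[F] (Fin 3 → F)}, hT.Rad u v g S →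
      hT.Rad u v h T → hT.L f (ap (g * h) (pt e P f y)) =
        hT.L f (ap h (pt e P f y)) + hT.L f (ap g (pt e P f y)) -
          S (hT.L v (ap h (pt e P f y))) := by
    intro g h S T hg hh
    conv_lhs => rw [ap_mul, hT.decompX hτ (ap h (pt e P f y)), hh.L_u hT, L_pt, hτ.fe, one_smul,
      ap_sub, ap_add, hg.fix, hg.shift]
    simp only [map_sub, map_add, L_pt, hτ.ef, hτ.vf, one_smul, zero_smul, zero_add]
  have h1 := key hg hh
  rw [hgh, key hh hg] at h1
  linear_combination (norm := abel) h1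

end Rad

lemma rad_rt (hτ : Trip u f v) (s : F) :
    hT.Rad u v (kron e P (rt hT.two hτ s) 1) (s • LinearMap.id) where
  isom := hT.kron_isometry (rt_mem_O3 _ hτ s) (one_mem _)
  fix y := by rw [ap_kron, rt_e, ap_one]
  shift y := by
    rw [ap_kron, rt_v, ap_one, pt_add_left, LinearMap.smul_apply, LinearMap.id_apply,
      pt_smul_left, pt_smul_right]

lemma L_v_rt (hτ : Trip u f v) (s : F) (y : Fin 3 → F) :
    hT.L v (ap (kron e P (rt hT.two hτ s) 1) (pt e P f y)) = -(s • y) := by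
  rw [ap_kron, rt_f, ap_one, L_pt, add_dotProduct, add_dotProduct, smul_dotProduct,
    smul_dotProduct, hτ.fv, hτ.vv, hτ.ev]
  simp

variable [Finite F]

lemma exists_t : ∃ t : F, t ≠ 0 ∧ t * t ≠ 1 := by
  have := Fintype.ofFinite F
  classical
  obtain ⟨t, ht⟩ : ∃ t : F, t ∉ ({0, 1, -1} : Finset F) := by
    by_contra hc
    push Not at hc
    have h1 := Finset.card_le_card (fun x _ => hc x : (Finset.univ : Finset F) ⊆ {0, 1, -1})
    have h3 : ({0, 1, -1} : Finset F).card ≤ 3 := Finset.card_le_three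
    have := hT.five
    rw [Nat.card_eq_fintype_card] at this
    rw [Finset.card_univ] at h1
    omega
  simp only [Finset.mem_insert, Finset.mem_singleton, not_or] at ht
  exact ⟨t, ht.1, fun h => (mul_self_eq_one_iff.mp h).elim ht.2.1 ht.2.2⟩

/-- The radical elements of an overgroup are factorwise. -/
theorem rad_eq (hO : hT.Over M) (hτ : Trip u f v) {g : GL ι F}
    {S : (Fin 3 → F) →ₗ[F] (Fin 3 → F)} (hgM : g ∈ M) (hg : hT.Rad u v g S) :
    ∃ s, g = kron e P (rt hT.two hτ s) 1 := by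
  have h2 := hT.two
  have hu : ∀ s, kron e P (rt h2 hτ s) 1 ∈ M := fun s =>
    hO.kron_mem hT (rt_mem h2 hτ s) (one_mem _)
  have hsym : ∀ {g S}, g ∈ M → hT.Rad u v g S → ∀ y y', S y ⬝ᵥ y' = y ⬝ᵥ S y' := by
    intro g S hgM hg y y'
    have h1 := Rad.comm_shift hT hO hτ hgM (hu 1) hg (hT.rad_rt hτ 1) y
    rw [hT.L_v_rt hτ, map_neg, one_smul, LinearMap.smul_apply, LinearMap.id_apply, one_smul] at h1
    have h3 := hg.pair_v hT hτ y y'
    rw [← h1, neg_dotProduct, neg_inj] at h3
    exact h3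
  have hLv : ∀ {g S}, g ∈ M → hT.Rad u v g S → ∀ y, hT.L v (ap g (pt e P f y)) = -(S y) :=
    fun {g S} hgM hg y => dotProduct_eq _ _ fun y' => by
      rw [hg.pair_v hT hτ, neg_dotProduct, hsym hgM hg]
  obtain ⟨k, hk⟩ := (sym h2).scalar_of_commute (by simp) (Or.inr hT.exists_t) (β := S)
    (fun x y => hsym hgM hg x y) fun a b ha hb x => by
      set r := (sym h2).rho a b ha hb
      have hr : r ∈ O3 F := (sym h2).rho_mem_isom ha hb
      have hkM : kron e P 1 r ∈ M :=
        hO.kron_mem hT (one_mem _) ((sym h2).rho_mem_commutator ha hb)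
      have hR : hT.Rad u v (kron e P 1 r * g * (kron e P 1 r)⁻¹)
          (((apEquiv r).toLinearMap.comp S).comp (apEquiv r⁻¹).toLinearMap) := by
        refine ⟨mul_mem (mul_mem (hT.kron_isometry (one_mem _) hr) hg.isom)
          (inv_mem (hT.kron_isometry (one_mem _) hr)), fun y => ?_, fun y => ?_⟩
        · rw [ap_mul, ap_mul, kron_inv, ap_kron, inv_one, ap_one, hg.fix, ap_kron, ap_one,
            ap_ap_inv]
        · rw [ap_mul, ap_mul, kron_inv, ap_kron, inv_one, ap_one, hg.shift, ap_add, ap_kron,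
            ap_kron, ap_one, ap_one, ap_ap_inv]
          rfl
      have hgrM := mul_mem (mul_mem hkM hgM) (inv_mem hkM)
      have h1 := Rad.comm_shift hT hO hτ hgM hgrM hg hR x
      rw [hLv hgM hg, hLv hgrM hR, map_neg, map_neg, neg_inj] at h1
      exact h1
  refine ⟨k, ?_⟩
  have h0 : hT.Rad u v (g * (kron e P (rt h2 hτ k) 1)⁻¹) 0 := by
    have := hg.mul hT ((hT.rad_rt hτ k).inv hT)
    rwa [show S + -(k • LinearMap.id) = 0 from LinearMap.ext fun y => by simp [hk]] at this
  exact mul_inv_eq_one.mp (Rad.eq_one hT hO hτ (mul_mem hgM (inv_mem (hu k))) h0)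

/-- An element of `M` that fixes the slice of `u` after a factorwise involution `w`. -/
lemma slice_core {M' : Subgroup (GL ι F)} (hO : hT.Over M) (hO' : hT.Over M')
    (hτ : Trip u f v) {w : GL ι F} (hwT : w ∈ TT e P) (hwI : w ∈ Cfsg.isometryGroup F (⇑Q))
    (hw : ∀ k ∈ M, w * k * w⁻¹ ∈ M') {g : GL ι F} (hgM : g ∈ M)
    (hA : ∀ x, ∃ x', ap (w * g) (pt e P u x) = pt e P u x') : g ∈ TT e P := by
  have h2 := hT.two
  set g1 := w * g with hg1
  have hI1 : g1 ∈ Cfsg.isometryGroup F (⇑Q) := mul_mem hwI (Orth.omegaGL_le (hO.le hgM))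
  set m : (Fin 3 → F) →ₗ[F] (Fin 3 → F) :=
    (hT.L f).comp ((apEquiv g1).toLinearMap.comp (ptr e P u)) with hmdef
  have hm : ∀ x, ap g1 (pt e P u x) = pt e P u (m x) := fun x => by
    obtain ⟨x', hx'⟩ := hA x
    change _ = pt e P u (hT.L f (ap g1 (pt e P u x)))
    rw [hx', L_pt, hτ.ef, one_smul]
  have hmi : Function.Injective m := fun x x' h =>
    pt_inj_right e P hτ.e_ne (ap_injective g1 (by rw [hm, hm, h]))
  have hms : Function.Surjective m := LinearMap.injective_iff_surjective.mp hmi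
  set U := kron e P (rt h2 hτ 1) 1 with hU
  set k := g1 * U * g1⁻¹ with hk
  have hkM : k ∈ M' := by
    rw [hk, hg1, show w * g * U * (w * g)⁻¹ = w * (g * U * g⁻¹) * w⁻¹ by group]
    exact hw _ (mul_mem (mul_mem hgM (hO.kron_mem hT (rt_mem h2 hτ 1) (one_mem _))) (inv_mem hgM))
  have hkR : hT.Rad u v k ((-m).comp
      ((hT.L v).comp ((apEquiv g1⁻¹).toLinearMap.comp (ptr e P v)))) := by
    refine ⟨Orth.omegaGL_le (hO'.le hkM), fun y => ?_, fun y => ?_⟩
    · obtain ⟨x, rfl⟩ := hms y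
      rw [hk, ap_mul, ap_mul, ← hm, ap_inv_ap, (hT.rad_rt hτ 1).fix]
    · set Z := ap g1⁻¹ (pt e P v y) with hZ
      have hZu : hT.L u Z = 0 := dotProduct_eq_zero _ fun x => by
        have h1 := Orth.polar_ap hI1 Z (pt e P u x)
        rw [hZ, ap_ap_inv, hm, hT.polar_pt, hτ.ve, zero_mul, mul_zero, hT.polar_right] at h1
        exact (mul_eq_zero.mp h1.symm).resolve_left hT.c_ne
      have hUZ : ap U Z = Z - pt e P u (hT.L v Z) := by
        conv_lhs => rw [hT.decompX hτ Z, hZu, pt_zero_right, add_zero, ap_sub,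
          (hT.rad_rt hτ 1).fix, (hT.rad_rt hτ 1).shift, one_smul, LinearMap.id_apply]
        conv_rhs => arg 1; rw [hT.decompX hτ Z, hZu, pt_zero_right, add_zero]
        abel
      rw [hk, ap_mul, ap_mul, ← hZ, hUZ, ap_sub, hm, hZ, ap_ap_inv, sub_eq_add_neg]
      simp [pt_neg_right]
  obtain ⟨s, hs⟩ := hT.rad_eq hO' hτ hkM hkR
  have hs0 : s ≠ 0 := fun h0 => by
    rw [h0, rt_zero, kron_one', hk, mul_inv_eq_one, mul_eq_left, hU] at hs
    exact one_ne_zero (rt_inj h2 hτ
      (kron_eq_one h2 (SO3_of_commutator (rt_mem h2 hτ 1)) (one_mem _) hs).1)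
  set B : (Fin 3 → F) →ₗ[F] (Fin 3 → F) :=
    (-(hT.L v)).comp ((apEquiv g1).toLinearMap.comp (ptr e P v)) with hBdef
  set C : (Fin 3 → F) →ₗ[F] (Fin 3 → F) :=
    (hT.L f).comp ((apEquiv g1).toLinearMap.comp (ptr e P v))
  have hBC : ∀ y, ap g1 (pt e P v y) = pt e P u (C y) + pt e P v (B y) := fun y => by
    have h0 : hT.L u (ap g1 (pt e P v y)) = 0 := dotProduct_eq_zero _ fun x' => by
      obtain ⟨x, rfl⟩ := hms x'
      have h1 := Orth.polar_ap hI1 (pt e P v y) (pt e P u x)
      rw [hm, hT.polar_right, hT.polar_pt, hτ.ve, zero_mul, mul_zero] at h1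
      exact (mul_eq_zero.mp h1).resolve_left hT.c_ne
    conv_lhs => rw [hT.decompX hτ (ap g1 (pt e P v y)), h0, pt_zero_right, add_zero]
    simp [B, C, pt_neg_right, sub_eq_add_neg]
  have hmB : ∀ y, m y = s • B y := fun y => by
    have h1 : g1 * U = kron e P (rt h2 hτ s) 1 * g1 := by rw [← hs, hk, inv_mul_cancel_right]
    have h3 := congrArg (fun G => ap G (pt e P v y)) h1
    simp only [ap_mul] at h3
    rw [(hT.rad_rt hτ 1).shift, one_smul, LinearMap.id_apply, ap_add, hm, hBC, ap_add,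
      (hT.rad_rt hτ s).fix, (hT.rad_rt hτ s).shift, LinearMap.smul_apply, LinearMap.id_apply,
      ← add_assoc] at h3
    exact pt_inj_right e P hτ.e_ne (add_left_cancel h3)
  have hBiso : ∀ y y', B y ⬝ᵥ B y' = y ⬝ᵥ y' := fun y y' => by
    have h1 := Orth.polar_ap hI1 (pt e P v y) (pt e P v y')
    rw [hBC, hBC, polar_add_left, polar_add_right, polar_add_right, hT.polar_pt, hT.polar_pt,
      hT.polar_pt, hT.polar_pt, hT.polar_pt, hτ.ee, hτ.ev, hτ.ve, hτ.vv] at h1
    refine mul_left_cancel₀ hT.c_ne ?_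
    linear_combination -h1
  have hBi : Function.Injective B := fun y y' h => hmi (by rw [hmB, hmB, h])
  let b : GL (Fin 3) F := ofEquiv (LinearEquiv.ofInjectiveEndo B hBi)
  have hb : ∀ y, ap b y = B y := fun y => by simp [b]
  let A : (Fin 3 → F) →ₗ[F] (Fin 3 → F) :=
    s • ((sym h2).fl f).smulRight u + s⁻¹ • ((sym h2).fl u).smulRight f -
      ((sym h2).fl v).smulRight v
  have hAap : ∀ X, A X = s • ((X ⬝ᵥ f) • u) + s⁻¹ • ((X ⬝ᵥ u) • f) - (X ⬝ᵥ v) • v := fun X => by
    simp [A]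
  have hAiso : ∀ X Y, A X ⬝ᵥ A Y = X ⬝ᵥ Y := fun X Y => by
    conv_rhs => rw [hτ.decomp X, hτ.decomp Y]
    simp only [hAap, add_dotProduct, sub_dotProduct, dotProduct_add, dotProduct_sub,
      smul_dotProduct, dotProduct_smul, smul_eq_mul, hτ.ee, hτ.ff, hτ.vv, hτ.ef, hτ.fe, hτ.ev,
      hτ.ve, hτ.fv, hτ.vf]
    field_simp
    ring
  have hAi : Function.Injective A := fun X Y h => dotProduct_eq _ _ fun Z => by
    rw [← hAiso X Z, ← hAiso Y Z, h]
  let a : GL (Fin 3) F := ofEquiv (LinearEquiv.ofInjectiveEndo A hAi)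
  have ha : ∀ X, ap a X = A X := fun X => by simp [a]
  set h := kron e P a b with hh
  have hhI : h ∈ Cfsg.isometryGroup F (⇑Q) :=
    hT.kron_isometry (mem_O3.mpr fun X Y => by rw [ha, ha, hAiso])
      (mem_O3.mpr fun X Y => by rw [hb, hb, hBiso])
  have hau : ap a u = s • u := by
    rw [ha, hAap, hτ.ef, hτ.ee, hτ.ev]; simp
  have hav : ap a v = v := by
    rw [ha, hAap, hτ.vf, hτ.ve, hτ.vv]; simp
  set ρ := h⁻¹ * g1 with hρ
  have hρR : hT.Rad u v ρ (s⁻¹ • (apEquiv b⁻¹).toLinearMap.comp C) := by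
    refine ⟨mul_mem (inv_mem hhI) hI1, fun y => ap_injective h ?_, fun y => ap_injective h ?_⟩
    · rw [hρ, ← ap_mul, mul_inv_cancel_left, hm, hh, ap_kron, hau, hb, pt_smul_left,
        ← pt_smul_right, hmB]
    · have hCy : ap b ((s⁻¹ • (apEquiv b⁻¹).toLinearMap.comp C) y) = s⁻¹ • C y := by
        change ap b (s⁻¹ • ap b⁻¹ (C y)) = _
        rw [ap_smul, ap_ap_inv]
      rw [hρ, ← ap_mul, mul_inv_cancel_left, hBC, hh, ap_add, ap_kron, ap_kron, hau, hav, hb, hCy,
        pt_smul_left, pt_smul_right, smul_smul, mul_inv_cancel₀ hs0, one_smul]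
      abel
  obtain ⟨p, hp⟩ := CharP.exists F
  have hpp : p.Prime := CharP.char_is_prime F p
  have hodd : Odd (p * p) := by
    have hp2 : p ≠ 2 := fun h => h2 (by subst h; exact_mod_cast CharP.cast_eq_zero F 2)
    exact (hpp.odd_of_ne_two hp2).mul (hpp.odd_of_ne_two hp2)
  have hρp : ρ ^ (p * p) = 1 := by
    have h1 : hT.Rad u v (ρ ^ p) 0 := by
      have := hρR.pow hT p
      rwa [← Nat.cast_smul_eq_nsmul F, CharP.cast_eq_zero, zero_smul] at this
    obtain ⟨n, hn⟩ := h1.exists_cen hT hτ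
    have hpow : ∀ j : ℕ, ∀ X, ap ((ρ ^ p) ^ j) X = X + (j : F) • pt e P u (n ⨯₃ hT.L u X) := by
      intro j
      induction j with
      | zero => simp
      | succ j ih =>
        intro X
        rw [pow_succ, ap_mul, ih, hn, map_add, L_pt, hτ.ee, zero_smul, add_zero, Nat.cast_succ,
          add_smul, one_smul]
        abel
    rw [pow_mul]
    exact gl_ext fun X => by rw [hpow, CharP.cast_eq_zero, zero_smul, add_zero, ap_one]
  have hρΩ := hT.mem_of_odd hρR.isom hodd hρp
  have hgeq : g = w⁻¹ * h * ρ := by rw [hρ, hg1]; group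
  have hwh : w⁻¹ * h ∈ M := by
    refine hO.mem _ (mul_mem (inv_mem hwT) (kron_mem_TT a b)) ?_
    rw [show w⁻¹ * h = g * ρ⁻¹ by rw [hgeq]; group]
    exact mul_mem (hO.le hgM) (inv_mem hρΩ)
  have hρT : ρ ∈ TT e P := by
    have hρM0 : ρ ∈ M := by
      rw [show ρ = (w⁻¹ * h)⁻¹ * g by rw [hgeq]; group]
      exact mul_mem (inv_mem hwh) hgM
    obtain ⟨t, ht⟩ := hT.rad_eq hO hτ hρM0 hρR
    rw [ht]; exact kron_mem_TT _ _
  rw [hgeq]
  exact mul_mem (mul_mem (inv_mem hwT) (kron_mem_TT a b)) hρT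

/-- An element of `M` mapping a singular slice to a singular slice lies in the stabiliser. -/
theorem slice_mem (hO : hT.Over M) {u u' : Fin 3 → F} (hu0 : u ≠ 0) (hu : u ⬝ᵥ u = 0)
    (hu0' : u' ≠ 0) (hu' : u' ⬝ᵥ u' = 0) {g : GL ι F} (hgM : g ∈ M)
    (h : (∀ x, ∃ x', ap g (pt e P u x) = pt e P u' x') ∨
      ∀ x, ∃ x', ap g (pt e P u x) = pt e P x' u') : g ∈ TT e P := by
  obtain ⟨f, v, hτ⟩ := exists_trip hT.two hu0 hu
  obtain ⟨a, ha, l, -, hau⟩ := exists_move hT.two hu0' hu' hu0 hu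
  rcases h with h | h
  · have hk : kron e P a 1 ∈ M := hO.kron_mem hT ha (one_mem _)
    have h1 := hT.slice_core hO hO hτ (one_mem _) (one_mem _) (fun k hk => by simpa using hk)
      (mul_mem hk hgM) fun x => by
        obtain ⟨x', hx'⟩ := h x
        exact ⟨l • x', by rw [one_mul, ap_mul, hx', ap_kron, hau, ap_one, pt_smul_left,
          pt_smul_right]⟩
    have h3 := mul_mem (inv_mem (kron_mem_TT (e := e) (P := P) a 1)) h1
    rwa [inv_mul_cancel_left] at h3
  · have hk : kron e P 1 a ∈ M := hO.kron_mem hT (one_mem _) ha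
    have h1 := hT.slice_core hO (hO.flip hT) hτ sw_mem_TT hT.sw_isometry
      (fun k hk => hT.mem_flip.mpr (by
        simpa [sw_inv, mul_assoc, sw_mul_self, ← mul_assoc (sw e P) (sw e P)] using hk))
      (mul_mem hk hgM) fun x => by
        obtain ⟨x', hx'⟩ := h x
        exact ⟨l • x', by rw [ap_mul, ap_mul, hx', ap_kron, hau, ap_one, ap_sw, pt_smul_left,
          pt_smul_right]⟩
    have h3 := mul_mem (inv_mem (kron_mem_TT (e := e) (P := P) 1 a)) h1
    rwa [inv_mul_cancel_left] at h3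

/-- An element of `M` conjugating a unipotent of a factor to an element of one factor lies in the
stabiliser. -/
theorem unip_mem (hO : hT.Over M) {u f v : Fin 3 → F} (hτ : Trip u f v) {s : F} (hs : s ≠ 0)
    {g : GL ι F} (hgM : g ∈ M) {b : GL (Fin 3) F}
    (h : g * kron e P (rt hT.two hτ s) 1 * g⁻¹ = kron e P b 1 ∨
      g * kron e P (rt hT.two hτ s) 1 * g⁻¹ = kron e P 1 b) : g ∈ TT e P := by
  have h2 := hT.two
  have hI := Orth.omegaGL_le (hO.le hgM)
  set U := kron e P (rt h2 hτ s) 1 with hU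
  set U' := g * U * g⁻¹ with hU'
  let D : GL ι F → (ι → F) →ₗ[F] (ι → F) := fun G =>
    ((apEquiv G).toLinearMap - LinearMap.id).comp ((apEquiv G).toLinearMap - LinearMap.id)
  have hD : ∀ X, D U X = (s * s) • pt e P u (hT.L u X) := by
    have he : D U = (s * s) • (ptr e P u).comp (hT.L u) := ext_pt e P fun x y => by
      simp only [D, LinearMap.comp_apply, LinearMap.sub_apply, LinearEquiv.coe_coe, apEquiv_apply,
        LinearMap.id_apply, LinearMap.smul_apply, L_pt, ptr_apply, ap_sub, hU, ap_kron, ap_one,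
        ← pt_sub_left, pt_smul_right]
      rw [← pt_smul_left, ← pt_smul_left]
      congr 1
      rw [← ap_sub]
      simp only [ap_rt, add_sub_cancel_left, add_sub_assoc, sub_dotProduct, smul_dotProduct,
        smul_eq_mul, hτ.ve, hτ.ee, hτ.vv, hτ.ev]
      match_scalars <;> field_simp <;> ring
    exact fun X => LinearMap.congr_fun he X
  have hconj : ∀ X, D U' (ap g X) = ap g (D U X) := fun X => by
    simp [D, hU', ap_mul, ap_inv_ap, ← ap_sub]
  let N : (Fin 3 → F) →ₗ[F] (Fin 3 → F) :=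
    ((apEquiv b).toLinearMap - LinearMap.id).comp ((apEquiv b).toLinearMap - LinearMap.id)
  have hN : (∀ x y, D U' (pt e P x y) = pt e P (N x) y) ∨
      ∀ x y, D U' (pt e P y x) = pt e P y (N x) := by
    rcases h with h | h
    · left
      intro x y
      simp only [D, N, LinearMap.comp_apply, LinearMap.sub_apply, LinearEquiv.coe_coe,
        apEquiv_apply, LinearMap.id_apply, ap_sub, h, ap_kron, ap_one, pt_sub_left]
    · right
      intro x y
      simp only [D, N, LinearMap.comp_apply, LinearMap.sub_apply, LinearEquiv.coe_coe,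
        apEquiv_apply, LinearMap.id_apply, ap_sub, h, ap_kron, ap_one, pt_sub_right]
  -- the image of `D U'` is totally singular
  have hts : ∀ X Y, polar Q (D U' X) (D U' Y) = 0 := fun X Y => by
    have hX := hconj (ap g⁻¹ X)
    have hY := hconj (ap g⁻¹ Y)
    rw [ap_ap_inv] at hX hY
    rw [hX, hY, Orth.polar_ap hI, hD, hD, polar_smul_left, polar_smul_right, hT.polar_pt, hτ.ee]
    simp
  obtain ⟨z, -, hz⟩ := exists_unit_perp h2 (x := v) hτ.vv_ne
  have hNts : ∀ x x', N x ⬝ᵥ N x' = 0 := fun x x' => by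
    have hc := hT.c_ne
    rcases hN with hN | hN
    · have h1 := hts (pt e P x z) (pt e P x' z)
      rw [hN, hN, hT.polar_pt, hz, mul_one] at h1
      exact (mul_eq_zero.mp h1).resolve_left hc
    · have h1 := hts (pt e P z x) (pt e P z x')
      rw [hN, hN, hT.polar_pt, hz, one_mul] at h1
      exact (mul_eq_zero.mp h1).resolve_left hc
  obtain ⟨x0, hx0⟩ : ∃ x0, N x0 ≠ 0 := by
    by_contra hc
    push Not at hc
    have h0 : D U' = 0 := by
      rcases hN with hN | hN
      · exact ext_pt e P fun x y => by rw [hN, hc, pt_zero_left]; rfl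
      · exact ext_pt e P fun x y => by rw [hN, hc, pt_zero_right]; rfl
    have h1 := hconj (pt e P f z)
    rw [h0, LinearMap.zero_apply, hD, L_pt, hτ.fe, one_smul, ap_smul] at h1
    refine ap_ne_zero g (pt_ne_zero e P hτ.e_ne (y := z) fun h => ?_)
      ((smul_eq_zero.mp h1.symm).resolve_left (mul_ne_zero hs hs))
    rw [h, zero_dotProduct] at hz
    exact zero_ne_one hz
  set u' := N x0
  have hprop : ∀ x, ∃ t : F, N x = t • u' := fun x =>
    prop_of_singular h2 hx0 (hNts _ _) (hNts _ _) (hNts _ _)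
  have hgu : ∀ y, ap g (pt e P u y) = (s * s)⁻¹ • D U' (ap g (pt e P f y)) := fun y => by
    rw [hconj, hD, L_pt, hτ.fe, one_smul, ap_smul, smul_smul,
      inv_mul_cancel₀ (mul_ne_zero hs hs), one_smul]
  refine hT.slice_mem hO hτ.e_ne hτ.ee hx0 (hNts _ _) hgM ?_
  rcases hN with hN | hN
  · left
    have h0 : (LinearMap.range (ptr e P u')).mkQ.comp (D U') = 0 := ext_pt e P fun x y => by
      obtain ⟨t, ht⟩ := hprop x
      rw [LinearMap.comp_apply, hN, ht, LinearMap.zero_apply, Submodule.mkQ_apply,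
        Submodule.Quotient.mk_eq_zero, pt_smul_left, ← pt_smul_right]
      exact ⟨_, rfl⟩
    intro x
    have h1 := LinearMap.congr_fun h0 (ap g (pt e P f x))
    rw [LinearMap.comp_apply, LinearMap.zero_apply, Submodule.mkQ_apply,
      Submodule.Quotient.mk_eq_zero] at h1
    obtain ⟨x', hx'⟩ := h1
    exact ⟨(s * s)⁻¹ • x', by rw [hgu, ← hx', ptr_apply, pt_smul_right]⟩
  · right
    have h0 : (LinearMap.range (ptl e P u')).mkQ.comp (D U') = 0 := ext_pt e P fun y x => by
      obtain ⟨t, ht⟩ := hprop x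
      rw [LinearMap.comp_apply, hN, ht, LinearMap.zero_apply, Submodule.mkQ_apply,
        Submodule.Quotient.mk_eq_zero, pt_smul_right, ← pt_smul_left]
      exact ⟨_, rfl⟩
    intro x
    have h1 := LinearMap.congr_fun h0 (ap g (pt e P f x))
    rw [LinearMap.comp_apply, LinearMap.zero_apply, Submodule.mkQ_apply,
      Submodule.Quotient.mk_eq_zero] at h1
    obtain ⟨x', hx'⟩ := h1
    exact ⟨(s * s)⁻¹ • x', by rw [hgu, ← hx', ptl_apply, pt_smul_left]⟩

end Data

end CfsgLib.Geometric.TSquare
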