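import Cfsg.Agent.Lib.Geometric.Orth.TensorSquare.Basic
import Cfsg.Agent.Lib.Geometric.OrthTensorMax.Gen

/-!
A non-trivial central element of the radical of the stabiliser of a singular slice in an overgroup
of the stabiliser of a tensor square generates `omegaGL`.
-/

set_option autoImplicit false
set_option linter.unusedSectionVars false
set_option linter.unusedSimpArgs false

namespace CfsgLib.Geometric.TSquare

open Matrix Tensor QuadraticMap OrthTensor

variable {ι : Type} [Fintype ι] [DecidableEq ι] {F : Type*} [Field F]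
variable {e : ι ≃ Fin 3 × Fin 3} {P : GL ι F} {Q : QuadraticForm F (ι → F)} {c : F}

namespace Data

variable (hT : Data Q e P c) {M : Subgroup (GL ι F)}

/-- An element of `M` adding `u ⊗ (n × L_u X)` to `X`. -/
def Cen (hT : Data Q e P c) (M : Subgroup (GL ι F)) (u n : Fin 3 → F) : Prop :=
  ∃ k ∈ M, ∀ X, ap k X = X + pt e P u (n ⨯₃ hT.L u X)

include hT

lemma L_pt_self {u : Fin 3 → F} (hu : u ⬝ᵥ u = 0) (y : Fin 3 → F) :
    hT.L u (pt e P u y) = 0 := by rw [L_pt, hu, zero_smul]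

lemma Cen.add {u n m : Fin 3 → F} (hu : u ⬝ᵥ u = 0) (h : hT.Cen M u n) (h' : hT.Cen M u m) :
    hT.Cen M u (n + m) := by
  obtain ⟨k, hk, hk'⟩ := h
  obtain ⟨l, hl, hl'⟩ := h'
  refine ⟨k * l, mul_mem hk hl, fun X => ?_⟩
  rw [ap_mul, hl', hk', map_add, hT.L_pt_self hu, add_zero, map_add (crossProduct) n m,
    LinearMap.add_apply, pt_add_right]
  abel

lemma Cen.neg {u n : Fin 3 → F} (hu : u ⬝ᵥ u = 0) (h : hT.Cen M u n) :
    hT.Cen M u (-n) := by
  obtain ⟨k, hk, hk'⟩ := h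
  refine ⟨k⁻¹, inv_mem hk, fun X => ap_injective k ?_⟩
  rw [ap_ap_inv, hk', map_add, hT.L_pt_self hu, add_zero, map_neg, LinearMap.neg_apply,
    pt_neg_right]
  abel

lemma L_kron_right {b : GL (Fin 3) F} (u : Fin 3 → F) (X : ι → F) :
    hT.L u (ap (kron e P 1 b) X) = ap b (hT.L u X) := by
  have h : (hT.L u).comp (apEquiv (kron e P 1 b)).toLinearMap =
      (apEquiv b).toLinearMap.comp (hT.L u) := ext_pt e P fun x y => by simp [ap_smul]
  exact LinearMap.congr_fun h X

lemma Cen.conj {u n : Fin 3 → F} {b : GL (Fin 3) F}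
    (hb : b ∈ SO3 F) (hbM : kron e P 1 b ∈ M) (h : hT.Cen M u n) : hT.Cen M u (ap b n) := by
  obtain ⟨k, hk, hk'⟩ := h
  refine ⟨kron e P 1 b * k * (kron e P 1 b)⁻¹, mul_mem (mul_mem hbM hk) (inv_mem hbM), fun X => ?_⟩
  rw [ap_mul, ap_mul, hk', ap_add, ap_ap_inv, ap_kron, ap_one, kron_inv, inv_one,
    hT.L_kron_right, ap_cross (mem_SO3.mp hb).1 (mem_SO3.mp hb).2, ap_ap_inv]

variable [Finite F]

/-- One non-trivial central element gives all. -/
theorem cen_all (hO : hT.Over M) {u n : Fin 3 → F} (hu : u ⬝ᵥ u = 0) (hn : n ≠ 0)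
    (h : hT.Cen M u n) (m : Fin 3 → F) : hT.Cen M u m := by
  have h2 := hT.two
  have hd : 3 ≤ Fintype.card (Fin 3) := by simp
  -- each value of the second difference
  have key : ∀ {w : Fin 3 → F}, w ≠ 0 → w ⬝ᵥ w = 0 → ∀ {n : Fin 3 → F}, hT.Cen M u n →
      n ⬝ᵥ w ≠ 0 → ∀ t : F, hT.Cen M u (t • w) := by
    intro w hw0 hw n hn hnw t
    obtain ⟨f, v, hτ⟩ := exists_trip h2 hw0 hw
    have D : ∀ s n, hT.Cen M u n → hT.Cen M u (ap (rt h2 hτ s) n - n) := fun s n hn => by
      rw [sub_eq_add_neg]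
      exact Cen.add hT hu (Cen.conj hT (SO3_of_commutator (rt_mem h2 hτ s))
        (hO.kron_mem hT (one_mem _) (rt_mem h2 hτ s)) hn) (Cen.neg hT hu hn)
    have h1 := D (t / (n ⬝ᵥ w)) _ (D 1 n hn)
    suffices he : ap (rt h2 hτ (t / (n ⬝ᵥ w))) (ap (rt h2 hτ 1) n - n) -
        (ap (rt h2 hτ 1) n - n) = t • w by rwa [he] at h1
    rw [ap_rt h2 hτ 1 n]
    simp only [add_sub_cancel_left, one_mul, add_sub_assoc, ap_rt, sub_dotProduct, smul_dotProduct,
      smul_eq_mul, hτ.ve, hτ.ee, hτ.vv, hτ.ev]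
    match_scalars <;> field_simp <;> ring
  let S : Submodule F (Fin 3 → F) :=
    { carrier := {m | ∀ t : F, hT.Cen M u (t • m)}
      add_mem' := fun ha hb t => by rw [smul_add]; exact Cen.add hT hu (ha t) (hb t)
      zero_mem' := fun t => by
        rw [smul_zero]
        exact ⟨1, one_mem _, fun X => by
          rw [ap_one, map_zero, LinearMap.zero_apply, pt_zero_right, add_zero]⟩
      smul_mem' := fun s a ha t => by rw [smul_smul]; exact ha _ }
  obtain ⟨w, hw, hnw⟩ : ∃ w, w ⬝ᵥ w = 0 ∧ n ⬝ᵥ w ≠ 0 := by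
    by_contra hc
    push Not at hc
    have h0 := (sym h2).eq_zero_of_iso hd (L := (sym h2).fl n) fun x hx => by
      rw [SymForm.fl_apply]
      change x ⬝ᵥ n = 0
      rw [dotProduct_comm, hc x hx]
    exact hn (dotProduct_eq_zero _ fun y => by
      rw [dotProduct_comm]; exact LinearMap.congr_fun h0 y)
  have hw0 : w ≠ 0 := fun h0 => hnw (by rw [h0, dotProduct_zero])
  have hwS := key hw0 hw h hnw
  have h0 := (sym h2).eq_zero_of_iso_near hd (w := w) hw hw0 (L := S.mkQ) fun x hx hxw => by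
    rw [Submodule.mkQ_apply, Submodule.Quotient.mk_eq_zero]
    have hx0 : x ≠ 0 := fun h0 => hxw (by simp [dp, h0])
    have hwC : hT.Cen M u w := by simpa using hwS 1
    exact key hx0 hx hwC (by rw [dotProduct_comm]; exact hxw)
  have hm : m ∈ S := by
    have h := LinearMap.congr_fun h0 m
    rwa [Submodule.mkQ_apply, LinearMap.zero_apply, Submodule.Quotient.mk_eq_zero] at h
  simpa using hm 1

omit [Finite F] in
lemma sg_slice {u : Fin 3 → F} (hu : u ⬝ᵥ u = 0) (a b : Fin 3 → F) (hp : Q (pt e P u a) = 0)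
    (hX : polar Q (pt e P u a) (pt e P u b) = 0) (X : ι → F) :
    ap (Orth.sg Q (pt e P u a) (pt e P u b) hp hX) X =
      X + pt e P u ((c • (a ⨯₃ b)) ⨯₃ hT.L u X) := by
  rw [Orth.ap_sg, hT.Q_pt_left hu b, hT.polar_right, hT.polar_right, map_smul,
    LinearMap.smul_apply, cross_cross', pt_smul_right, pt_sub_right, pt_smul_right, pt_smul_right,
    dotProduct_comm a, dotProduct_comm b]
  module

/-- All Siegel elements inside a slice. -/
lemma root_slice (hO : hT.Over M) {u n : Fin 3 → F} (hu : u ⬝ᵥ u = 0) (hn : n ≠ 0)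
    (h : hT.Cen M u n) (a b : Fin 3 → F) : SgIn Q M (pt e P u a) (pt e P u b) := by
  have hp := hT.Q_pt_left hu a
  have hX : polar Q (pt e P u a) (pt e P u b) = 0 := by rw [hT.polar_pt, hu]; ring
  obtain ⟨k, hk, hk'⟩ := hT.cen_all hO hu hn h (c • (a ⨯₃ b))
  refine ⟨hp, hX, ?_⟩
  rwa [show Orth.sg Q (pt e P u a) (pt e P u b) hp hX = k from gl_ext fun X => by
    rw [hT.sg_slice hu, hk']]

/-- The same in every singular slice. -/
lemma root_all (hO : hT.Over M) {u n : Fin 3 → F} (hu : u ⬝ᵥ u = 0) (hu0 : u ≠ 0) (hn : n ≠ 0)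
    (h : hT.Cen M u n) {w : Fin 3 → F} (hw : w ⬝ᵥ w = 0) (hw0 : w ≠ 0) (a b : Fin 3 → F) :
    SgIn Q M (pt e P w a) (pt e P w b) := by
  obtain ⟨g, hg, l, hl, hgu⟩ := exists_move hT.two hu0 hu hw0 hw
  have hgM := hO.kron_mem hT hg (one_mem _)
  have h1 := (hT.root_slice hO hu hn h (l⁻¹ • a) (l⁻¹ • b)).map
    (hO.le.trans Orth.omegaGL_le) hgM
  rwa [ap_kron, ap_kron, ap_one, ap_one, hgu, pt_smul_left, pt_smul_left, pt_smul_right,
    pt_smul_right, smul_smul, smul_smul, mul_inv_cancel₀ hl, one_smul, one_smul] at h1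

/-- All Siegel elements at `u ⊗ u`. -/
lemma full_of_root (hO : hT.Over M) {u n : Fin 3 → F} (hu : u ⬝ᵥ u = 0) (hu0 : u ≠ 0)
    (hn : n ≠ 0) (h : hT.Cen M u n) {a f v : Fin 3 → F} (hτ : Trip a f v) :
    Orth.Full Q M (pt e P a a) := by
  intro hQ X hX
  have h2 := hT.two
  have hMI := hO.le.trans Orth.omegaGL_le
  -- the two orientations
  have hR : ∀ {M : Subgroup (GL ι F)}, hT.Over M →
      (∀ (w : Fin 3 → F), w ⬝ᵥ w = 0 → w ≠ 0 → ∀ p q, SgIn Q M (pt e P w p) (pt e P w q)) →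
      ∀ x y : F, SgIn Q M (pt e P a a) (x • pt e P f v + y • pt e P f a) := by
    intro M hO hr x y
    have hMI := hO.le.trans Orth.omegaGL_le
    obtain ⟨hp, hm, hk⟩ := hr f hτ.ff hτ.f_ne a v
    have e1 : ∀ z, ap (Orth.sg Q (pt e P f a) (pt e P f v) hp hm) (pt e P a z) = pt e P a z +
        (c * (z ⬝ᵥ a)) • pt e P f v - (c * (z ⬝ᵥ v)) • pt e P f a := fun z => by
      rw [Orth.ap_sg, hT.polar_pt, hT.polar_pt, hT.Q_pt_left hτ.ff, hτ.ef]
      simp
    have efix : ap (Orth.sg Q (pt e P f a) (pt e P f v) hp hm) (pt e P a a) = pt e P a a := by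
      rw [e1, hτ.ee, hτ.ev]; simp
    have step : ∀ z, SgIn Q M (pt e P a a)
        ((c * (z ⬝ᵥ a)) • pt e P f v - (c * (z ⬝ᵥ v)) • pt e P f a) := by
      intro z
      have h1 := (hr a hτ.ee hτ.e_ne a z).map hMI hk
      rw [efix, e1] at h1
      exact (h1.sub (hr a hτ.ee hτ.e_ne a z)).congr (by abel)
    refine (step ((x / c) • f + (y / c) • v)).congr ?_
    simp only [add_dotProduct, smul_dotProduct, smul_eq_mul, hτ.fe, hτ.fv, hτ.ve, hτ.vv]
    have := hT.c_ne
    match_scalars <;> field_simp <;> ring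
  have hA : ∀ w : Fin 3 → F, w ⬝ᵥ w = 0 → w ≠ 0 → ∀ p q, SgIn Q M (pt e P w p) (pt e P w q) :=
    fun w hw hw0 p q => hT.root_all hO hu hu0 hn h hw hw0 p q
  -- the exchanged orientation
  have hback : ∀ {p q : ι → F}, SgIn Q (hT.flip M) p q →
      SgIn Q M (ap (sw e P) p) (ap (sw e P) q) := by
    rintro p q ⟨hp, hq, hm⟩
    have h1 := hT.mem_flip.mp hm
    have hI := hT.sw_isometry
    refine ⟨by rw [Orth.mem_isometryGroup_iff.mp hI, hp], by rw [Orth.polar_ap hI, hq], ?_⟩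
    rw [← Orth.conj_sg hI hp hq]
    simpa only [sw_inv] using h1
  have hB : ∀ w : Fin 3 → F, w ⬝ᵥ w = 0 → w ≠ 0 → ∀ p q,
      SgIn Q (hT.flip M) (pt e P w p) (pt e P w q) := by
    obtain ⟨hp, hq, hk⟩ := (hR hO hA 0 1).congr
      (show (0 : F) • pt e P f v + (1 : F) • pt e P f a = pt e P f a by simp)
    have hz : hT.Cen (hT.flip M) a (c • (a ⨯₃ f)) := by
      refine ⟨sw e P * Orth.sg Q _ _ hp hq * sw e P, hT.mem_flip.mpr ?_, fun X => ?_⟩
      · simpa [mul_assoc, sw_mul_self, ← mul_assoc (sw e P) (sw e P)] using hk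
      · have hI := hT.sw_isometry
        have hc := Orth.conj_sg hI hp hq
        rw [sw_inv] at hc
        rw [hc]
        have e1 := hT.sg_slice hτ.ee a f (hT.Q_pt_left hτ.ee a)
          (by rw [hT.polar_pt, hτ.ee]; ring) X
        rw [← e1]
        congr 2 <;> simp
    intro w hw hw0 p q
    refine hT.root_all (hO.flip hT) hτ.ee hτ.e_ne ?_ hz hw hw0 p q
    rw [← hτ.hv]
    exact smul_ne_zero hT.c_ne hτ.v_ne
  let S : Submodule F (ι → F) :=
    { carrier := {Y | ∀ t : F, SgIn Q M (pt e P a a) (t • Y)}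
      add_mem' := fun ha hb t => by rw [smul_add]; exact (ha t).add (hb t)
      zero_mem' := fun t => by rw [smul_zero]; exact SgIn.zero hQ
      smul_mem' := fun s a ha t => by rw [smul_smul]; exact ha _ }
  have sleft : ∀ y, pt e P a y ∈ S := fun y t => by
    rw [← pt_smul_right]; exact hA a hτ.ee hτ.e_ne a _
  have sright : ∀ y, pt e P y a ∈ S := fun y t => by
    have h1 := hback (hB a hτ.ee hτ.e_ne a (t • y))
    rw [ap_sw, ap_sw, pt_smul_left] at h1
    exact h1
  have sfv : pt e P f v ∈ S := fun t => by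
    have h1 := hR hO hA t 0
    rwa [zero_smul, add_zero] at h1
  have svf : pt e P v f ∈ S := fun t => by
    have h1 := hback (hR (hO.flip hT) hB t 0)
    rwa [ap_sw, zero_smul, add_zero, ap_smul, ap_sw] at h1
  have svv : pt e P v v ∈ S := fun t => by
    have hgM := hO.kron_mem hT (rt_mem h2 hτ 1) (one_mem _)
    have h1 := (sfv t).map hMI hgM
    rw [ap_kron, ap_one, rt_e, ap_smul, ap_kron, ap_one, rt_f, pt_add_left, pt_add_left,
      pt_smul_left, pt_smul_left, smul_add, smul_add, one_smul] at h1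
    refine ((h1.sub (sfv t)).sub (sleft v (t * ((2 : F)⁻¹ * 1 * 1)))).congr ?_
    module
  have hdec : X ∈ S := by
    have hff : hT.L a X ⬝ᵥ a = 0 := by
      rw [polar_comm, hT.polar_right] at hX
      exact (mul_eq_zero.mp hX).resolve_left hT.c_ne
    have hXdec : X = pt e P a (hT.L f X) + pt e P f (hT.L a X) - pt e P v (hT.L v X) := by
      have h : LinearMap.id = (ptr e P a).comp (hT.L f) + (ptr e P f).comp (hT.L a) -
          (ptr e P v).comp (hT.L v) := ext_pt e P fun x y => by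
        simp only [LinearMap.id_apply, LinearMap.sub_apply, LinearMap.add_apply,
          LinearMap.comp_apply, L_pt, ptr_apply, pt_smul_right, ← pt_smul_left]
        rw [← pt_add_left, ← pt_sub_left, ← hτ.decomp x]
      exact LinearMap.congr_fun h X
    rw [hXdec]
    refine S.sub_mem (S.add_mem (sleft _) ?_) ?_
    · rw [hτ.decomp (hT.L a X), hff, zero_smul, add_zero, pt_sub_right, pt_smul_right,
        pt_smul_right]
      exact S.sub_mem (S.smul_mem _ (sright f)) (S.smul_mem _ sfv)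
    · rw [hτ.decomp (hT.L v X), pt_sub_right, pt_add_right, pt_smul_right, pt_smul_right,
        pt_smul_right]
      exact S.sub_mem (S.add_mem (S.smul_mem _ (sright v)) (S.smul_mem _ svf)) (S.smul_mem _ svv)
  have h1 := hdec 1
  rw [one_smul] at h1
  exact h1.2.2

/-- An overgroup has no non-trivial central element. -/
theorem cen_eq_zero (hO : hT.Over M) {u n : Fin 3 → F} (hu : u ⬝ᵥ u = 0) (hu0 : u ≠ 0)
    (h : hT.Cen M u n) : n = 0 := by
  by_contra hn
  obtain ⟨f, v, hτ⟩ := exists_trip hT.two hu0 hu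
  refine hO.small (Orth.Full.le_of_pair hT.nondeg hT.five_le (hO.le.trans Orth.omegaGL_le)
    (hT.full_of_root hO hu hu0 hn h hτ) (hT.full_of_root hO hu hu0 hn h hτ.swap)
    (hT.Q_pt_left hτ.ee _) (hT.Q_pt_left hτ.ff _) ?_)
  rw [hT.polar_pt, hτ.ef, mul_one, mul_one]
  exact hT.c_ne

end Data

end CfsgLib.Geometric.TSquare
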