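import Cfsg.Agent.Lib.Geometric.Orth.TensorSquare.Max
import Cfsg.Agent.Lib.SmallDim.OmegaNine

/-!
The stabiliser of a tensor square decomposition of the polar form in dimension nine is maximal in
the commutator subgroup of the isometry group, over fields of odd order at least five.
-/

set_option autoImplicit false
set_option linter.unusedSectionVars false
set_option linter.unusedSimpArgs false
set_option linter.style.haveILetI false

namespace CfsgLib.Geometric.TSquare

open Matrix Tensor QuadraticMap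
open Cfsg.Geo (tensorWreathSubgroup IsMaximalIn IsTensorPowerFormStructure IsSymmetricForm
  gramMatrix omegaGL glReindex)
open CfsgLib.SmallDim (pureTensorVec pureMat pureGL pureMat_mulVec pureVec_dot factorPerm
  tensorWreathSubgroup_absorb tensorProductSubgroup_le_wreath)

variable {ι : Type} [Fintype ι] [DecidableEq ι] {F : Type*} [Field F]

/-- The factorwise maps and the exchange lie in the tensor-wreath subgroup. -/
lemma TT_le_wreath (e : ι ≃ (Fin 2 → Fin 3)) (P : GL ι F) :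
    TT (e.trans (piFinTwoEquiv fun _ => Fin 3)) P ≤ tensorWreathSubgroup 3 2 e P := by
  set s := piFinTwoEquiv fun _ => Fin 3
  have he : (e.trans s).trans s.symm = e := Equiv.ext fun i => by simp
  have hkron : ∀ a b : GL (Fin 3) F, kron (e.trans s) P a b ∈ tensorWreathSubgroup 3 2 e P := by
    intro a b
    have h := tensorProductSubgroup_le_wreath 3 (e.trans s) P
      ((Tensor.mem_iff (e.trans s) P _).mpr ⟨a, b, fun x y => ap_kron _ _ a b x y⟩)
    rwa [he] at h
  have hsw : sw (e.trans s) P ∈ tensorWreathSubgroup 3 2 e P := by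
    refine ⟨glReindex e.symm (factorPerm (Equiv.swap 0 1)),
      ⟨_, Subgroup.subset_closure (Or.inr ⟨Equiv.swap 0 1, fun x y => rfl⟩), rfl⟩, ?_⟩
    refine gl_ext_pt (e.trans s) P fun x y => ?_
    rw [ap_sw, show (MulAut.conj P).toMonoidHom
      (glReindex e.symm (factorPerm (Equiv.swap (0 : Fin 2) 1))) =
      P * glReindex e.symm (factorPerm (Equiv.swap 0 1)) * P⁻¹ from rfl, pt, pt, coords_apply,
      coords_apply]
    refine (CfsgLib.SmallDim.act_conj_reindex e P _ (fun f : Fin 2 → Fin 3 => x (f 0) * y (f 1))).trans ?_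
    refine congrArg (ap P) (funext fun i => ?_)
    rw [show (fun f : Fin 2 → Fin 3 => x (f 0) * y (f 1)) = pureTensorVec ![x, y] from
      funext fun f => by simp [pureTensorVec, Fin.prod_univ_two],
      CfsgLib.SmallDim.factorPerm_mulVec (σ := Equiv.swap 0 1) fun x y => rfl]
    simp [pureTensorVec, Fin.prod_univ_two, s]
  rintro g ⟨a, b, rfl | rfl⟩
  · exact hkron a b
  · exact mul_mem (hkron a b) hsw

variable [Fintype F] {Q : QuadraticForm F (ι → F)}

/-- Coordinates in which the polar form is a multiple of the tensor square of the dot product. -/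
lemma exists_data (h2 : (2 : F) ≠ 0) (h5 : 5 ≤ Fintype.card F) (e : ι ≃ (Fin 2 → Fin 3))
    (P : GL ι F) {f₁ : (Fin 3 → F) → (Fin 3 → F) → F} (hf : IsSymmetricForm f₁)
    (hs : IsTensorPowerFormStructure id (polar ⇑Q) f₁ e P) :
    ∃ (P' : GL ι F) (c : F), Data Q (e.trans (piFinTwoEquiv fun _ => Fin 3)) P' c ∧
      TT (e.trans (piFinTwoEquiv fun _ => Fin 3)) P' ≤ tensorWreathSubgroup 3 2 e P := by
  set G := gramMatrix f₁ with hG
  have hGs : Gᵀ = G := by
    ext i j
    exact hf.symm _ _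
  let B : LinearMap.BilinForm F (Fin 3 → F) := LinearMap.mk₂ F f₁
    hf.bilinear.add_left hf.bilinear.smul_left hf.bilinear.add_right hf.bilinear.smul_right
  have hB : Matrix.toBilin' G = B := by
    have hm : LinearMap.BilinForm.toMatrix' B = G := by
      ext i j
      rw [LinearMap.BilinForm.toMatrix'_apply]
      rfl
    rw [← hm, Matrix.toBilin'_toMatrix']
  have hGd : G.det ≠ 0 := by
    intro h0
    obtain ⟨v, hv, hv0⟩ := Matrix.exists_mulVec_eq_zero_iff.mpr h0
    obtain ⟨x, hx⟩ := (hf.nondegenerate v hv).1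
    refine hx ?_
    have : f₁ x v = Matrix.toBilin' G x v := by rw [hB]; rfl
    rw [this, Matrix.toBilin'_apply', hv0, dotProduct_zero]
  obtain ⟨γ, A, hγ, hA⟩ := CfsgLib.SmallDim.OrthEven.exists_scaled_orth_matrix h2 hGs hGd
  obtain ⟨c₀, hc₀, hgram⟩ := hs
  set z : GL (Fin 2 → Fin 3) F := pureGL ![A, A] with hz'
  have hzmem : z ∈ Cfsg.Geo.tensorWreathStandard 3 2 F :=
    Subgroup.subset_closure (Or.inl ⟨_, fun x y => rfl⟩)
  refine ⟨P * glReindex e.symm z, c₀ * (γ * γ), ?_, ?_⟩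
  · refine ⟨h2, by rwa [Nat.card_eq_fintype_card], mul_ne_zero hc₀ (mul_ne_zero hγ hγ),
      fun x y x' y' => ?_⟩
    have hpt : ∀ x y : Fin 3 → F,
        pt (e.trans (piFinTwoEquiv fun _ => Fin 3)) (P * glReindex e.symm z) x y =
          (P : Matrix ι ι F) *ᵥ
            (pureTensorVec ![(A : Matrix (Fin 3) (Fin 3) F) *ᵥ x,
              (A : Matrix (Fin 3) (Fin 3) F) *ᵥ y] ∘ e) := by
      intro x y
      have h1 : pt (e.trans (piFinTwoEquiv fun _ => Fin 3)) (P * glReindex e.symm z) x y =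
          CfsgLib.SmallDim.OrthEven.point e (P * glReindex e.symm z) (pureTensorVec ![x, y]) := by
        rw [pt, coords_apply]
        refine congrArg (ap _) (funext fun i => ?_)
        simp [pureTensorVec, Fin.prod_univ_two]
      rw [h1, CfsgLib.SmallDim.OrthEven.point_mul_glReindex, CfsgLib.SmallDim.OrthEven.point, hz',
        show ((pureGL ![A, A] : GL (Fin 2 → Fin 3) F) : Matrix _ _ F) =
          pureMat fun i => ((![A, A] i : GL (Fin 3) F) : Matrix (Fin 3) (Fin 3) F) from rfl,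
        pureMat_mulVec]
      congr 3
      funext i
      fin_cases i <;> rfl
    rw [hpt, hpt, hgram]
    have hsum : ∀ u u' : (Fin 2 → Fin 3) → F,
        ∑ a, ∑ b, u a * (∏ i, G (a i) (b i)) * id (u' b) =
          u ⬝ᵥ ((pureMat fun _ => G) *ᵥ u') := by
      intro u u'
      simp only [id, dotProduct, Matrix.mulVec, pureMat, Matrix.of_apply, Finset.mul_sum, mul_assoc]
    rw [hsum, pureMat_mulVec, pureVec_dot, Fin.prod_univ_two]
    have hAdot : ∀ x x' : Fin 3 → F, ((A : Matrix (Fin 3) (Fin 3) F) *ᵥ x) ⬝ᵥ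
        (G *ᵥ ((A : Matrix (Fin 3) (Fin 3) F) *ᵥ x')) = γ * (x ⬝ᵥ x') := by
      intro x x'
      rw [← Matrix.vecMul_transpose, ← Matrix.dotProduct_mulVec, Matrix.mulVec_mulVec,
        Matrix.mulVec_mulVec, hA, Matrix.smul_mulVec, Matrix.one_mulVec, dotProduct_smul,
        smul_eq_mul]
    simp only [Matrix.cons_val_zero, Matrix.cons_val_one, hAdot]
    ring
  · refine (TT_le_wreath e (P * glReindex e.symm z)).trans ?_
    have h := tensorWreathSubgroup_absorb e (P * glReindex e.symm z) (inv_mem hzmem)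
    rwa [map_inv, mul_inv_cancel_right] at h

/-- The tensor square stabiliser is maximal. -/
theorem tensorSquare_isMaximalIn (h2 : (2 : F) ≠ 0) (h5 : 5 ≤ Fintype.card F)
    (e : ι ≃ (Fin 2 → Fin 3)) (P : GL ι F) {f₁ : (Fin 3 → F) → (Fin 3 → F) → F}
    (hf : IsSymmetricForm f₁) (hs : IsTensorPowerFormStructure id (polar ⇑Q) f₁ e P) :
    IsMaximalIn (omegaGL ⇑Q) (tensorWreathSubgroup 3 2 e P ⊓ omegaGL ⇑Q) := by
  classical
  obtain ⟨P', c, hT, hTT⟩ := exists_data h2 h5 e P hf hs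
  have hnot : ¬ omegaGL ⇑Q ≤ tensorWreathSubgroup 3 2 e P :=
    CfsgLib.SmallDim.OrthEven.omega_not_le_tensorWreathSubgroup hT.nondeg hT.five_le
      (by norm_num) (by rw [hT.card_nine]; norm_num) e P
  refine ⟨lt_of_le_of_ne inf_le_right fun h => hnot (inf_eq_right.mp h), fun M hHM hM => ?_⟩
  by_cases hall : omegaGL ⇑Q ≤ M
  · exact Or.inr (le_antisymm hM hall)
  · have hO : hT.Over M := ⟨hM, fun g hg hΩ => hHM ⟨hTT hg, hΩ⟩, hall⟩
    exact Or.inl (le_antisymm (le_inf ((hT.le_TT hO).trans hTT) hM) hHM)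

end CfsgLib.Geometric.TSquare

namespace CfsgLib.Geometric.Orth.TensorSquare

/-- The stabiliser of a tensor square decomposition of the standard form in dimension nine. -/
theorem tensorSquare_isMaximalIn {F : Type*} [Field F] [Fintype F] (hodd : Odd (Fintype.card F))
    (h5 : 5 ≤ Fintype.card F) (e : (Unit ⊕ (Fin 4 ⊕ Fin 4)) ≃ (Fin 2 → Fin 3))
    (P : Matrix.GeneralLinearGroup (Unit ⊕ (Fin 4 ⊕ Fin 4)) F)
    (f₁ : (Fin 3 → F) → (Fin 3 → F) → F) (hf : Cfsg.Geo.IsSymmetricForm f₁)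
    (hs : Cfsg.Geo.IsTensorPowerFormStructure id (QuadraticMap.polar (Cfsg.quadFormOdd 4 F)) f₁ e P) :
    Cfsg.Geo.IsMaximalIn (Cfsg.Geo.omegaGL (Cfsg.quadFormOdd 4 F))
      (Cfsg.Geo.tensorWreathSubgroup 3 2 e P ⊓ Cfsg.Geo.omegaGL (Cfsg.quadFormOdd 4 F)) := by
  have h2 : (2 : F) ≠ 0 := by
    refine Ring.two_ne_zero fun h => ?_
    exact Nat.not_even_iff_odd.mpr hodd
      (Nat.even_iff.mpr (FiniteField.even_card_of_char_two h))
  obtain ⟨Q, hQ⟩ : ∃ Q : QuadraticForm F ((Unit ⊕ (Fin 4 ⊕ Fin 4)) → F),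
      ⇑Q = Cfsg.quadFormOdd 4 F := ⟨_, (CfsgLib.SmallDim.quadFormOdd_eq 4 F).symm⟩
  rw [← hQ] at hs ⊢
  exact CfsgLib.Geometric.TSquare.tensorSquare_isMaximalIn h2 h5 e P hf hs

end CfsgLib.Geometric.Orth.TensorSquare
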